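import Cfsg.Agent.H5.ClassFn
import Cfsg.Agent.H5.Linear
import Cfsg.Agent.H6.Ito
import Cfsg.Agent.H32.DefectCard

set_option autoImplicit false
open Cfsg
open scoped commutatorElement

namespace Cfsg.Agent.H89McK

/-- number of irreducible characters of degree prime to `l` -/
noncomputable def cnt (l : ℕ) (G : Type*) [Group G] : ℕ :=
  Nat.card {χ : IrrCharacter G // ¬ l ∣ charDegree (χ : G → ℂ)}

/-- number of irreducible characters of degree `d` -/
noncomputable def nd (G : Type*) [Group G] (d : ℕ) : ℕ :=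
  Nat.card {χ : IrrCharacter G // (χ : G → ℂ) 1 = (d : ℂ)}

theorem cnt_congr {G H : Type*} [Group G] [Group H] (l : ℕ) (e : G ≃* H) : cnt l G = cnt l H := by
  unfold cnt
  refine Nat.card_congr ⟨fun χ => ⟨⟨fun x => χ.1.1 (e.symm x),
      H5.isIrrCharacter_comp_equiv χ.1.2 e.symm⟩, ?_⟩,
    fun χ => ⟨⟨fun x => χ.1.1 (e x), H5.isIrrCharacter_comp_equiv χ.1.2 e⟩, ?_⟩, ?_, ?_⟩
  · have := χ.2
    simpa [charDegree] using this
  · have := χ.2
    simpa [charDegree] using this
  · intro χ
    ext x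
    simp
  · intro χ
    ext x
    simp

theorem cnt_all {G : Type*} [Group G] [Finite G] {l : ℕ}
    (h : ∀ χ : IrrCharacter G, ¬ l ∣ charDegree (χ : G → ℂ)) :
    cnt l G = Nat.card (ConjClasses G) := by
  rw [← H5.card_irrCharacter]
  exact Nat.card_congr (Equiv.subtypeUnivEquiv h)

theorem nd_eq {G : Type*} [Group G] [Finite G] [Fintype (IrrCharacter G)] (d : ℕ) :
    nd G d = (Finset.univ.filter fun χ : IrrCharacter G => charDegree (χ : G → ℂ) = d).card := by
  classical
  unfold nd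
  rw [Nat.card_eq_fintype_card, Fintype.card_subtype]
  congr 1
  ext χ
  simp only [Finset.mem_filter, Finset.mem_univ, true_and]
  rw [← H32.cast_charDegree_irr, Nat.cast_inj]

theorem cnt_eq_sum {G : Type*} [Group G] [Finite G] (l : ℕ) (D : Finset ℕ)
    (h : ∀ χ : IrrCharacter G, ¬ l ∣ charDegree (χ : G → ℂ) → charDegree (χ : G → ℂ) ∈ D) :
    cnt l G = ∑ d ∈ D, if l ∣ d then 0 else nd G d := by
  classical
  have := Fintype.ofFinite (IrrCharacter G)
  unfold cnt
  rw [Nat.card_eq_fintype_card, Fintype.card_subtype,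
    Finset.card_eq_sum_card_fiberwise (f := fun χ : IrrCharacter G => charDegree (χ : G → ℂ))
      (t := D) (fun χ hχ => h χ (by simpa using hχ))]
  refine Finset.sum_congr rfl fun d _ => ?_
  split_ifs with hd
  · rw [Finset.card_eq_zero, Finset.filter_eq_empty_iff]
    intro χ hχ e
    rw [Finset.mem_filter, e] at hχ
    exact hχ.2 hd
  · rw [nd_eq]
    congr 1
    ext χ
    simp only [Finset.mem_filter, Finset.mem_univ, true_and]
    exact ⟨fun a => a.2, fun a => ⟨a ▸ hd, a⟩⟩

theorem cnt_add {G : Type*} [Group G] [Finite G] (l d : ℕ)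
    (h : ∀ χ : IrrCharacter G, l ∣ charDegree (χ : G → ℂ) ↔ charDegree (χ : G → ℂ) = d) :
    cnt l G + nd G d = Nat.card (ConjClasses G) := by
  classical
  have := Fintype.ofFinite (IrrCharacter G)
  rw [← H5.card_irrCharacter, nd_eq]
  unfold cnt
  rw [Nat.card_eq_fintype_card, Fintype.card_subtype, Nat.card_eq_fintype_card, add_comm,
    ← Finset.card_univ, ← Finset.card_filter_add_card_filter_not (s := Finset.univ)
      (fun χ : IrrCharacter G => l ∣ charDegree (χ : G → ℂ))]
  have e : (Finset.univ.filter fun χ : IrrCharacter G => charDegree (χ : G → ℂ) = d) =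
      Finset.univ.filter fun χ : IrrCharacter G => l ∣ charDegree (χ : G → ℂ) := by
    ext χ
    simp [h χ]
  rw [e]

theorem nd_one {G : Type*} [Group G] [Finite G] : nd G 1 = (commutator G).index := by
  rw [← H5.card_monoidHom_eq_index_commutator, Nat.card_congr (H5.linearCharEquiv G)]
  simp [nd]

theorem cnt_abelian_sylow {G : Type*} [Group G] [Finite G] {l : ℕ} [Fact l.Prime] (S : Sylow l G)
    (hS : ∀ a ∈ (S : Subgroup G), ∀ b ∈ (S : Subgroup G), a * b = b * a) :
    cnt l (Subgroup.normalizer ((S : Subgroup G) : Set G)) =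
      Nat.card (ConjClasses (Subgroup.normalizer ((S : Subgroup G) : Set G))) := by
  refine cnt_all fun χ hχ => S.not_dvd_index ?_
  have := H6.degree_dvd_index_of_abelian_normal
    ((S : Subgroup G).subgroupOf (Subgroup.normalizer ((S : Subgroup G) : Set G)))
    (fun a ha b hb => Subtype.ext (hS _ ha _ hb)) χ.2 (H32.cast_charDegree_irr χ).symm
  exact (hχ.trans this).trans (Subgroup.relIndex_dvd_index_of_le Subgroup.le_normalizer)

theorem cnt_pgroup {G : Type*} [Group G] [Finite G] {l k : ℕ} (hl : l.Prime)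
    (hG : Nat.card G = l ^ k) : cnt l G = (commutator G).index := by
  rw [cnt_eq_sum l {1}, Finset.sum_singleton, if_neg (by simpa using hl.ne_one), nd_one]
  intro χ hχ
  have := H32.charDegree_dvd_card χ
  rw [hG, Nat.dvd_prime_pow hl] at this
  obtain ⟨j, -, hj⟩ := this
  rw [hj] at hχ ⊢
  rcases j with _ | j
  · simp
  · exact absurd (dvd_pow_self l (Nat.succ_ne_zero j)) hχ

theorem sum_sq {G : Type*} [Group G] [Finite G] [Fintype (IrrCharacter G)] :
    ∑ χ : IrrCharacter G, charDegree (χ : G → ℂ) ^ 2 = Nat.card G := by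
  have := H5.sum_degree_sq (G := G)
  simp only [← H32.cast_charDegree_irr] at this
  exact_mod_cast this

theorem cnt_24 {G : Type*} [Group G] [Finite G] (hG : Nat.card G = 24)
    (h3 : (commutator G).index = 3) : cnt 2 G = 4 := by
  classical
  have := Fintype.ofFinite (IrrCharacter G)
  have hodd : ∀ χ : IrrCharacter G, ¬ 2 ∣ charDegree (χ : G → ℂ) →
      charDegree (χ : G → ℂ) ∈ ({1, 3} : Finset ℕ) := by
    intro χ hχ
    have h := H32.charDegree_dvd_card χ
    rw [hG] at h
    have h' := Nat.le_of_dvd (by norm_num) h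
    generalize charDegree (χ : G → ℂ) = d at *
    interval_cases d <;> simp_all
  rw [cnt_eq_sum 2 {1, 3} hodd, Finset.sum_pair (by norm_num), if_neg (by norm_num),
    if_neg (by norm_num), nd_one, h3]
  have hs := sum_sq (G := G)
  rw [hG, ← Finset.sum_filter_add_sum_filter_not Finset.univ
    (fun χ : IrrCharacter G => 2 ∣ charDegree (χ : G → ℂ))] at hs
  have h4 : 4 ∣ ∑ χ ∈ Finset.univ.filter (fun χ : IrrCharacter G => 2 ∣ charDegree (χ : G → ℂ)),
      charDegree (χ : G → ℂ) ^ 2 := by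
    refine Finset.dvd_sum fun χ hχ => ?_
    exact pow_dvd_pow_of_dvd (Finset.mem_filter.1 hχ).2 2
  have h5 : ∑ χ ∈ Finset.univ.filter (fun χ : IrrCharacter G => ¬ 2 ∣ charDegree (χ : G → ℂ)),
      charDegree (χ : G → ℂ) ^ 2 = nd G 1 + 9 * nd G 3 := by
    rw [← Finset.sum_fiberwise_of_maps_to (t := ({1, 3} : Finset ℕ))
      (g := fun χ : IrrCharacter G => charDegree (χ : G → ℂ))
      (fun χ hχ => hodd χ (Finset.mem_filter.1 hχ).2), Finset.sum_pair (by norm_num),
      nd_eq, nd_eq]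
    have a : ∀ d : ℕ, ¬ 2 ∣ d → ∑ χ ∈ (Finset.univ.filter
        (fun χ : IrrCharacter G => ¬ 2 ∣ charDegree (χ : G → ℂ))).filter
        (fun χ : IrrCharacter G => charDegree (χ : G → ℂ) = d), charDegree (χ : G → ℂ) ^ 2 =
        d ^ 2 * (Finset.univ.filter fun χ : IrrCharacter G => charDegree (χ : G → ℂ) = d).card := by
      intro d hd
      rw [Finset.sum_congr rfl (g := fun _ => d ^ 2) (fun χ hχ => by
        rw [(Finset.mem_filter.1 hχ).2]), Finset.sum_const, smul_eq_mul, mul_comm]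
      congr 2
      ext χ
      simp only [Finset.mem_filter, Finset.mem_univ, true_and]
      exact ⟨fun a => a.2, fun a => ⟨a ▸ hd, a⟩⟩
    rw [a 1 (by norm_num), a 3 (by norm_num)]
    norm_num
  rw [h5, nd_one, h3] at hs
  omega

theorem index_comm_dic {G : Type*} [Group G] [Finite G] {x y : G} {m : ℕ}
    (hx : orderOf x = 2 * m) (hG : Nat.card G = 4 * m) (hxy : y * x * y⁻¹ = x⁻¹)
    (hgen : ∀ s : G, ∃ i : ℕ, s = x ^ i ∨ s = y * x ^ i) : (commutator G).index = 4 := by
  have hm : 0 < m := by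
    have := orderOf_pos x
    omega
  have hc : ∀ (s : G) (j : ℤ), s * x ^ j * s⁻¹ = x ^ j ∨ s * x ^ j * s⁻¹ = x ^ (-j) := by
    intro s j
    obtain ⟨i, rfl | rfl⟩ := hgen s
    · left; group
    · right
      have : y * x ^ i * x ^ j * (y * x ^ i)⁻¹ = y * x ^ j * y⁻¹ := by group
      rw [this, ← conj_zpow, hxy]; group
  have hN : (Subgroup.zpowers (x ^ 2)).Normal := ⟨fun n hn g => by
    obtain ⟨j, rfl⟩ := Subgroup.mem_zpowers_iff.1 hn
    rw [← zpow_natCast, ← zpow_mul]
    rcases hc g (((2 : ℕ) : ℤ) * j) with e | e <;> rw [e]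
    · rw [zpow_mul, zpow_natCast]; exact Subgroup.zpow_mem _ (Subgroup.mem_zpowers _) _
    · rw [← mul_neg, zpow_mul, zpow_natCast]; exact Subgroup.zpow_mem _ (Subgroup.mem_zpowers _) _⟩
  have hxy' : ∀ i : ℕ, ((y * x ^ i : G) : G ⧸ Subgroup.zpowers (x ^ 2)) =
      ((x ^ i * y : G) : G ⧸ Subgroup.zpowers (x ^ 2)) := by
    intro i
    rw [QuotientGroup.eq]
    have e1 : y⁻¹ * x * y = x⁻¹ := by
      have : y⁻¹ * x⁻¹ * y = x := by rw [← hxy]; group
      calc y⁻¹ * x * y = (y⁻¹ * x⁻¹ * y)⁻¹ := by group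
        _ = x⁻¹ := by rw [this]
    have : (y * x ^ i)⁻¹ * (x ^ i * y) = (x ^ i)⁻¹ * (y⁻¹ * x * y⁻¹⁻¹) ^ i := by
      rw [conj_pow]; group
    rw [this, inv_inv, e1, inv_pow, ← mul_inv_rev, ← pow_add, ← two_mul, pow_mul]
    exact Subgroup.inv_mem _ (Subgroup.pow_mem _ (Subgroup.mem_zpowers _) _)
  have e : commutator G = Subgroup.zpowers (x ^ 2) := by
    refine le_antisymm ?_ ?_
    · rw [← Subgroup.Normal.quotient_commutative_iff_commutator_le]
      refine ⟨⟨fun a b => ?_⟩⟩
      obtain ⟨a, rfl⟩ := QuotientGroup.mk_surjective a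
      obtain ⟨b, rfl⟩ := QuotientGroup.mk_surjective b
      have hc' : Commute (y : G ⧸ Subgroup.zpowers (x ^ 2)) (x : G ⧸ Subgroup.zpowers (x ^ 2)) := by
        have := hxy' 1
        simpa [Commute, SemiconjBy] using this
      obtain ⟨i, rfl | rfl⟩ := hgen a <;> obtain ⟨j, rfl | rfl⟩ := hgen b <;>
        simp only [QuotientGroup.mk_mul, QuotientGroup.mk_pow]
      · exact ((Commute.refl _).pow_pow i j).eq
      · exact ((hc'.symm.pow_left i).mul_right ((Commute.refl _).pow_pow i j)).eq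
      · exact ((hc'.pow_right j).mul_left ((Commute.refl _).pow_pow i j)).eq
      · exact (((Commute.refl _).mul_right (hc'.pow_right j)).mul_left
          ((hc'.symm.pow_left i).mul_right ((Commute.refl _).pow_pow i j))).eq
    · rw [Subgroup.zpowers_le]
      have : x ^ 2 = ⁅x, y⁆ := by
        rw [commutatorElement_def, mul_assoc, mul_assoc, ← mul_assoc y, ← conj_inv, hxy, inv_inv, sq]
      rw [this]
      exact Subgroup.commutator_mem_commutator (Subgroup.mem_top _) (Subgroup.mem_top _)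
  have h1 := (Subgroup.zpowers (x ^ 2)).card_mul_index
  rw [Nat.card_zpowers, orderOf_pow' _ two_ne_zero, hx, Nat.gcd_mul_right_left,
    Nat.mul_div_cancel_left _ two_pos, hG, mul_comm 4] at h1
  rw [e]
  exact Nat.eq_of_mul_eq_mul_left hm h1

end Cfsg.Agent.H89McK
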