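import Cfsg.Agent.H89.PBound
import Cfsg.Agent.H89.GlaubExt
import Cfsg.Agent.H6.CliffordCorr

/-! A `p`-group acting on a `p'`-subgroup of a linear group. -/

set_option autoImplicit false
set_option linter.style.haveILetI false
set_option linter.unusedSectionVars false

namespace Cfsg.Agent.H89

open Cfsg Cfsg.Agent.H5 Cfsg.Agent.H6 Subgroup

variable {G : Type*} [Group G]

theorem exists_canon_orbit [Fintype G] (K : Subgroup G) [K.Normal] [DecidableEq (K → ℂ)]
    (hcop : K.index.Coprime (Nat.card K)) {θ : K → ℂ} (hθ : IsIrrCharacter K θ) :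
    ∃ Ψ : G → ℂ, IsIrrCharacter G Ψ ∧ IsCanon (Nat.card K) Ψ ∧
      (fun k : K => Ψ k) = ∑ φ ∈ Finset.univ.image (fun x : G => conjChar K x θ), φ := by
  letI : Fintype K := Fintype.ofFinite _
  letI : Fintype (inertia K θ) := Fintype.ofFinite _
  have hKT := le_inertia K (isClassFunction_of_isIrr hθ)
  have hr : (inclusion hKT).range = K.subgroupOf (inertia K θ) := inclusion_range hKT
  obtain ⟨ψ, hψ, hψθ, -, hc⟩ := exists_canon_ext (inclusion hKT) (inclusion_injective hKT)
    (by rw [hr]; infer_instance)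
    (by rw [hr]; exact hcop.coprime_dvd_left (relIndex_dvd_index_of_le hKT)) hθ
    (fun y g g' h => by
      rw [← (mem_inertia_iff K).1 y.2 g]
      have h' := congrArg Subtype.val h
      exact congrArg θ (Subtype.ext h'))
  have h1 : classInner (fun n : K => ψ ⟨n, hKT n.2⟩) θ = 1 := by
    rw [← classInner_irr_self hθ]
    exact congrArg (classInner · θ) (funext hψθ)
  have h2 := isIrr_indFun_of_over K hθ _ rfl hKT hψ (by rw [h1]; exact one_ne_zero)
  have h3 : classInner (fun t : inertia K θ => indFun _ ψ t) ψ ≠ 0 := by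
    rw [← classInner_indFun_right _ ψ (indFun_isClassFunction _ _), classInner_irr_self h2]
    exact one_ne_zero
  have h4 := (indFun_eq_of_over K hθ _ rfl hKT hψ (by rw [h1]; exact one_ne_zero) h2 h3).2
  refine ⟨_, h2, fun τ hτ y => ?_, ?_⟩
  · have := congrFun (indFun_map_ringHom _ ψ τ.toRingHom) y
    rw [show (fun h => τ.toRingHom (ψ h)) = ψ from funext (hc τ hτ)] at this
    exact this.symm
  · rw [clifford K h2 hθ (by rw [← h4, h1]; exact one_ne_zero), ← h4, h1, one_smul]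

theorem exists_canon_sum [Finite G] (K : Subgroup G) [K.Normal]
    (hcop : K.index.Coprime (Nat.card K)) (S : Finset (K → ℂ)) (hS : ∀ θ ∈ S, IsIrrCharacter K θ)
    (hcl : ∀ θ ∈ S, ∀ g, conjChar K g θ ∈ S) :
    ∃ Ψ : G → ℂ, IsCharacter G Ψ ∧ IsCanon (Nat.card K) Ψ ∧ (fun k : K => Ψ k) = ∑ φ ∈ S, φ := by
  classical
  letI : Fintype G := Fintype.ofFinite _
  induction S using Finset.strongInduction with
  | _ S ih =>
  rcases S.eq_empty_or_nonempty with rfl | ⟨θ, hθ⟩
  · exact ⟨0, isCharacter_zero, fun τ _ y => by simp, rfl⟩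
  obtain ⟨Ψ, hΨ, hc, e⟩ := exists_canon_orbit K hcop (hS θ hθ)
  set O := Finset.univ.image (fun x : G => conjChar K x θ) with hO
  have hOS : O ⊆ S := fun φ hφ => by
    obtain ⟨x, -, rfl⟩ := Finset.mem_image.1 hφ
    exact hcl θ hθ x
  obtain ⟨Φ, hΦ, hc', e'⟩ := ih (S \ O) (Finset.sdiff_ssubset hOS
    ⟨θ, Finset.mem_image.2 ⟨1, Finset.mem_univ _, conjChar_one K θ⟩⟩)
    (fun φ hφ => hS φ (Finset.mem_sdiff.1 hφ).1) (fun φ hφ g => Finset.mem_sdiff.2
      ⟨hcl φ (Finset.mem_sdiff.1 hφ).1 g, fun h => (Finset.mem_sdiff.1 hφ).2 (by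
        obtain ⟨x, -, hx⟩ := Finset.mem_image.1 h
        refine Finset.mem_image.2 ⟨x * g⁻¹, Finset.mem_univ _, ?_⟩
        rw [conjChar_mul, hx, conjChar_inv_conjChar])⟩)
  refine ⟨Φ + Ψ, isCharacter_add hΦ (isCharacter_of_isIrr hΨ), fun τ hτ y => ?_, ?_⟩
  · rw [Pi.add_apply, map_add, hc τ hτ, hc' τ hτ]
  · rw [← Finset.sum_sdiff hOS, ← e, ← e']
    rfl

theorem IsCanon.rational [Finite G] {m : ℕ} (hm : m ≠ 0) {Ψ : G → ℂ} (hΨ : IsCharacter G Ψ)
    (hc : IsCanon m Ψ) {x : G} (hx : (orderOf x).Coprime m) (τ : ℂ ≃+* ℂ) : τ (Ψ x) = Ψ x := by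
  obtain ⟨k, hk, hτ⟩ := H7.exists_coprime_pow_of_ringEquiv τ (orderOf_pos x).ne'
  obtain ⟨σ, hσ, hσ'⟩ := H7.exists_ringEquiv_pow_fix (orderOf_pos x).ne' hm hx hk
  have e1 := H7.ringHom_apply_character τ.toRingHom hτ hΨ (pow_orderOf_eq_one x)
  have e2 := H7.ringHom_apply_character σ.toRingHom hσ hΨ (pow_orderOf_eq_one x)
  exact (e1.trans e2.symm).trans (hc σ hσ' x)

/-- A `p`-group acting on a `p'`-group with an invariant faithful character of degree `n`. -/
theorem relIndex_centralizer_le_bnd [Finite G] {p : ℕ} (hp : p.Prime) (K P : Subgroup G)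
    [hK : K.Normal] (hP : IsPGroup p P) (hi : K.index.Coprime (Nat.card K))
    (hpK : (Nat.card K).Coprime p) {χ : G → ℂ} (hχ : IsCharacter G χ)
    (hf : ∀ k ∈ K, χ k = χ 1 → k = 1) {n : ℕ} (hn : charDegree χ ≤ n) :
    (centralizer (K : Set G)).relIndex P ≤ p ^ bnd p (n + 1) n := by
  classical
  haveI := Fact.mk hp
  letI : Fintype K := Fintype.ofFinite _
  have hψ := isCharacter_restrict hχ K
  let T : Finset (IrrCharacter K) :=
    Finset.univ.filter fun φ => classInner (fun k : K => χ k) φ ≠ 0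
  obtain ⟨Ψ, hΨ, hc, e⟩ := exists_canon_sum K hi (T.image Subtype.val)
    (fun φ hφ => by
      obtain ⟨φ, -, rfl⟩ := Finset.mem_image.1 hφ
      exact φ.2)
    (fun φ hφ g => by
      obtain ⟨φ, hφ', rfl⟩ := Finset.mem_image.1 hφ
      refine Finset.mem_image.2 ⟨⟨_, isIrr_conjChar K φ.2 g⟩,
        Finset.mem_filter.2 ⟨Finset.mem_univ _, ?_⟩, rfl⟩
      exact (classInner_res_conjChar K (isClassFunction_of_isCharacter hχ) g φ.1).trans_ne
        (Finset.mem_filter.1 hφ').2)
  rw [Finset.sum_image Subtype.val_injective.injOn] at e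
  have hdeg : charDegree Ψ ≤ n := by
    obtain ⟨m, hm, hd, -⟩ := H88.exists_nat_mult hψ
    have h1 : charDegree Ψ = ∑ φ ∈ T, charDegree (φ : K → ℂ) := by
      refine H88.charDegree_eq_of_eq ((congrFun e 1).trans ?_)
      rw [Finset.sum_apply, Nat.cast_sum]
      exact Finset.sum_congr rfl fun φ _ => (H88.irr_charDegree_cast φ).symm
    refine le_trans ?_ hn
    rw [h1, ← H88.charDegree_restrict K χ, hd]
    refine le_trans (Finset.sum_le_sum fun φ hφ => ?_)
      (Finset.sum_le_sum_of_subset (Finset.subset_univ T))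
    refine Nat.le_mul_of_pos_left _ (Nat.pos_of_ne_zero fun h0 => ?_)
    exact (Finset.mem_filter.1 hφ).2 (by rw [hm, h0, Nat.cast_zero])
  have hker : ∀ k ∈ K, k ∈ charKer hΨ → k = 1 := fun k hk h => by
    refine hf k hk (apply_eq_degree_of_forall_constituent hψ (g := ⟨k, hk⟩) fun φ hφ h' => ?_)
    refine apply_eq_degree_of_constituent (isCharacter_restrict hΨ K) hφ ?_ h
    rw [e, classInner_sum_left, Finset.sum_eq_single_of_mem (⟨φ, hφ⟩ : IrrCharacter K)
      (Finset.mem_filter.2 ⟨Finset.mem_univ _, h'⟩)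
      fun b _ hb => classInner_irr_ne b.2 hφ fun h => hb (Subtype.ext h)]
    exact (classInner_irr_self hφ).trans_ne one_ne_zero
  have h1 := index_charKer_le_of_rational hp hP (isCharacter_restrict hΨ P)
    (fun τ x => hc.rational Nat.card_pos.ne' hΨ (by
      obtain ⟨k, hk⟩ := IsPGroup.iff_orderOf.1 hP x
      rw [Subgroup.orderOf_coe, hk]
      exact Nat.Coprime.pow_left _ hpK.symm) τ)
    ((H88.charDegree_restrict P Ψ).trans_le hdeg)
  refine le_trans (index_antitone fun x hx => ?_) h1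
  have hx' : (x : G) ∈ charKer hΨ := hx
  refine mem_subgroupOf.2 (mem_centralizer_iff.2 fun k hk => ?_)
  have h2 := hker (k * x * k⁻¹ * (x : G)⁻¹) (by
      have := mul_mem hk (hK.conj_mem _ (inv_mem hk) x)
      simpa [mul_assoc] using this)
    (mul_mem ((instNormalCharKer hΨ).conj_mem _ hx' k) (inv_mem hx'))
  rw [mul_inv_eq_one, mul_inv_eq_iff_eq_mul] at h2
  exact h2

end Cfsg.Agent.H89
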