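import Cfsg.Agent.H79.Ward2
import Cfsg.Agent.H79.Gross
import Cfsg.Agent.H79.Exc
import Cfsg.Agent.H79.Fth

/-! Non-abelian groups of order `p q` acting without fixed points: preliminaries. -/

set_option autoImplicit false

namespace Cfsg.Agent.H89

open Module Finset Subgroup
open H49 hiding fixS
open H79 hiding cj rep_inv_apply
open scoped commutatorElement

variable {X : Type*} [Group X] [Finite X]

/-- `A` is non-abelian of order `p q` with normal subgroup `⟨s⟩` of order `q`. -/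
structure PQ (p q : ℕ) (A : Subgroup X) (s : X) : Prop where
  hp : p.Prime
  hq : q.Prime
  ne : p ≠ q
  card : Nat.card A = p * q
  mem : s ∈ A
  ord : orderOf s = q
  norm : A ≤ 𝒩(zpowers s)
  nc : ¬ A ≤ 𝒞[s]

namespace PQ

variable {p q : ℕ} {A : Subgroup X} {s : X} (h : PQ p q A s)
include h

theorem pow : s ^ q = 1 := h.ord ▸ pow_orderOf_eq_one s

theorem s_ne : s ≠ 1 := fun e => h.hq.one_lt.ne' (by rw [← h.ord, e, orderOf_one])

theorem card_zp : Nat.card (zpowers s) = q := by rw [Nat.card_zpowers, h.ord]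

theorem gen {a b : X} (ha : a ∈ A) (hb : b ∈ A) (h1 : a ≠ 1) (hab : b ∉ zpowers a) :
    A ≤ zpowers a ⊔ zpowers b := by
  have h2 : zpowers a ⊔ zpowers b ≤ A := sup_le (zpowers_le.2 ha) (zpowers_le.2 hb)
  refine (eq_of_le_of_card_eq h2 ?_).ge
  obtain ⟨c, hc⟩ := card_dvd_of_le (le_sup_left : zpowers a ≤ zpowers a ⊔ zpowers b)
  obtain ⟨d, hd⟩ := card_dvd_of_le h2
  have h3 : Nat.card (zpowers a) ≠ 1 := by simpa using h1
  have h4 : c ≠ 1 := fun e => hab (by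
    rw [e, mul_one] at hc
    exact (eq_of_le_of_card_eq le_sup_left hc.symm).ge (mem_sup_right (mem_zpowers b)))
  by_contra h5
  have h6 : d ≠ 1 := fun e => h5 (by rw [hd, e, mul_one])
  rw [h.card, hc] at hd
  have h0 : Nat.card (zpowers a) * c * d ≠ 0 := hd ▸ mul_ne_zero h.hp.ne_zero h.hq.ne_zero
  have h7 := congrArg ArithmeticFunction.cardFactors hd
  rw [ArithmeticFunction.cardFactors_mul h.hp.ne_zero h.hq.ne_zero,
    ArithmeticFunction.cardFactors_mul (left_ne_zero_of_mul h0) (right_ne_zero_of_mul h0),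
    ArithmeticFunction.cardFactors_mul (left_ne_zero_of_mul (left_ne_zero_of_mul h0))
      (right_ne_zero_of_mul (left_ne_zero_of_mul h0)),
    ArithmeticFunction.cardFactors_apply_prime h.hp,
    ArithmeticFunction.cardFactors_apply_prime h.hq] at h7
  have key : ∀ n : ℕ, n ≠ 0 → n ≠ 1 → 0 < ArithmeticFunction.cardFactors n := fun n h0 h1 =>
    ArithmeticFunction.cardFactors_pos_iff_one_lt.2 (by omega)
  have := key _ (left_ne_zero_of_mul (left_ne_zero_of_mul h0)) h3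
  have := key _ (right_ne_zero_of_mul (left_ne_zero_of_mul h0)) h4
  have := key _ (right_ne_zero_of_mul h0) h6
  omega

theorem cent {a : X} (ha : a ∈ A) (hs : a ∉ zpowers s) : zpowers s ⊓ 𝒞[a] = ⊥ := by
  refine (inf_eq_bot_or_le_of_prime_card (h.card_zp ▸ h.hq) _).resolve_right fun h1 => h.nc ?_
  exact (h.gen h.mem ha h.s_ne hs).trans (sup_le (zpowers_le.2 (self_mem_cent1 s))
    (zpowers_le.2 (mem_cent1_comm.1 (h1 (mem_zpowers s)))))

theorem ordp {a : X} (ha : a ∈ A) (hs : a ∉ zpowers s) : orderOf a = p := by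
  have h1 : zpowers s ⊓ zpowers a = ⊥ :=
    le_bot_iff.1 ((inf_le_inf_left _ (zpowers_le.2 (self_mem_cent1 a))).trans (h.cent ha hs).le)
  have h2 := card_sup_of_disjoint (.inr ((zpowers_le.2 ha).trans h.norm)) h1
  rw [le_antisymm (sup_le (zpowers_le.2 h.mem) (zpowers_le.2 ha)) (h.gen h.mem ha h.s_ne hs),
    h.card, h.card_zp, Nat.card_zpowers, mul_comm] at h2
  exact (Nat.eq_of_mul_eq_mul_left h.hq.pos h2).symm

theorem powp {a : X} (ha : a ∈ A) (hs : a ∉ zpowers s) : a ^ p = 1 :=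
  h.ordp ha hs ▸ pow_orderOf_eq_one a

theorem exists_not_mem : ∃ a ∈ A, a ∉ zpowers s :=
  SetLike.not_le_iff_exists.1 fun h1 => h.nc (h1.trans (zpowers_le.2 (self_mem_cent1 s)))

theorem dvd : p ∣ q - 1 := by
  obtain ⟨a, ha, hs⟩ := h.exists_not_mem
  have := pow_dvd_card_sub (Q := zpowers s) (L := ⊥) (n := 0) h.hp (h.norm ha) (le_norm_bot ⊤ trivial) bot_le
    (by simpa using h.powp ha hs) (by simpa using h.cent ha hs)
  simpa [h.ord] using this

theorem solv : Group.IsSolvable A := by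
  obtain ⟨a, ha, hs⟩ := h.exists_not_mem
  exact solvable_of_le (solvable_sup inferInstance inferInstance
    (.inr ((zpowers_le.2 ha).trans h.norm))) (h.gen h.mem ha h.s_ne hs)

/-- no exceptional configuration for `s` -/
theorem no_exc {N : ℕ} (hN : N.Coprime (p * q)) (t m : ℕ) (ht : t.Prime) (hd : t ∣ N)
    (_ : 1 ≤ m) : q ≠ t ^ m + 1 := fun e => by
  have h1 : p ∣ t ^ m := by simpa [e] using h.dvd
  have h2 := (Nat.prime_dvd_prime_iff_eq h.hp ht).1 (h.hp.dvd_of_dvd_pow h1)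
  exact h.hp.one_lt.ne' (Nat.Coprime.eq_one_of_dvd
    (Nat.Coprime.coprime_mul_right_right hN).symm (h2 ▸ hd))

theorem s_mem {S : Subgroup X} (hn : A ≤ 𝒩(S)) {a : X} (ha : a ∈ A) (h1 : a ≠ 1) (hS : a ∈ S) :
    s ∈ S := by
  by_cases hs : a ∈ zpowers s
  · exact mem_of_mem_zpowers_prime h.hq h.pow hs h1 hS
  have h2 : s * a * s⁻¹ * a⁻¹ ∈ zpowers s := by
    rw [mul_assoc, mul_assoc, ← mul_assoc a]
    exact mul_mem (mem_zpowers s) (conj_mem_of_norm h.norm ha (inv_mem (mem_zpowers s)))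
  refine mem_of_mem_zpowers_prime h.hq h.pow h2 (fun e => h.s_ne ?_)
    (mul_mem (conj_mem_of_norm hn h.mem hS) (inv_mem hS))
  refine mem_bot.1 ((h.cent ha hs).le ⟨mem_zpowers s, mem_cent1.2 ?_⟩)
  rwa [mul_inv_eq_one, mul_inv_eq_iff_eq_mul] at e

theorem map {Y : Type*} [Group Y] [Finite Y] (f : X →* Y) (hs : f s ≠ 1) :
    PQ p q (A.map f) (f s) := by
  have h1 : ∀ a ∈ A, f a = 1 → a = 1 := fun a ha e => by_contra fun h1 =>
    hs (h.s_mem (S := f.ker) le_normalizer_of_normal ha h1 e)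
  refine ⟨h.hp, h.hq, h.ne, ?_, mem_map_of_mem f h.mem, ?_, ?_, fun h2 => h.nc fun a ha => ?_⟩
  · rw [← h.card, ← A.range_subtype, MonoidHom.map_range, A.range_subtype]
    exact (Nat.card_congr (MonoidHom.ofInjective ((injective_iff_map_eq_one _).2 fun a h =>
      Subtype.ext (h1 a a.2 h))).toEquiv).symm
  · have := Fact.mk h.hq
    exact orderOf_eq_prime (by rw [← map_pow, h.pow, map_one]) hs
  · rw [← MonoidHom.map_zpowers]
    exact (map_mono h.norm).trans (le_normalizer_map f)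
  · have h3 := mem_cent1.1 (h2 (mem_map_of_mem f ha))
    have h4 := h1 _ (mul_mem (mul_mem ha h.mem) (inv_mem (mul_mem h.mem ha)))
      (by rw [map_mul, map_inv, map_mul, map_mul, h3, mul_inv_cancel])
    exact mem_cent1.2 (mul_inv_eq_one.1 h4)

theorem conj (x : X) : PQ p q (cj x A) (x * s * x⁻¹) :=
  h.map (MulAut.conj x).toMonoidHom (by simpa using h.s_ne)

end PQ

variable {K : Type*} [Field K] {U V : Type*} [AddCommGroup U] [Module K U]
  [AddCommGroup V] [Module K V]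

/-- the stabilizer of a vector -/
def vstab (ρ : X →* End K V) (v : V) : Subgroup X where
  carrier := {x | ρ x v = v}
  one_mem' := by simp
  mul_mem' := fun {a b} ha hb => by
    change ρ (a * b) v = v
    rw [rep_mul_apply, hb, ha]
  inv_mem' := fun {a} ha => by
    change ρ a⁻¹ v = v
    conv_lhs => rw [← show ρ a v = v from ha, rep_inv_apply]

omit [Finite X] in
theorem mem_vstab {ρ : X →* End K V} {v : V} {x : X} : x ∈ vstab ρ v ↔ ρ x v = v := Iff.rfl

omit [Finite X] in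
theorem sup_le_vstab_sum (ρ : X →* End K V) {B C : Subgroup X} [Fintype B]
    (hC : C ≤ 𝒩(B) ∨ B ≤ 𝒩(C)) {v : V} (hv : C ≤ vstab ρ v) :
    B ⊔ C ≤ vstab ρ (∑ g : B, ρ g v) := by
  refine sup_le (fun b hb => ?_) fun c hc => ?_ <;> rw [mem_vstab, map_sum]
  · exact Fintype.sum_equiv (Equiv.mulLeft (⟨b, hb⟩ : B)) _ _ fun g => (rep_mul_apply ρ _ _ _).symm
  rcases hC with hC | hC
  · refine Fintype.sum_equiv (cjAut B (hC hc)).toEquiv _ _ fun g => ?_
    change _ = ρ (c * g * c⁻¹) v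
    rw [rep_mul_apply, rep_mul_apply, mem_vstab.1 (hv (inv_mem hc))]
  · refine sum_congr rfl fun g _ => ?_
    conv_rhs => rw [← mem_vstab.1 (hv (conj_mem_of_norm' hC g.2 hc))]
    rw [← rep_mul_apply, ← rep_mul_apply]
    congr 2
    group

/-- no non-zero vector is fixed by `A` -/
def NoFix (ρ : X →* End K V) (A : Subgroup X) : Prop := ∀ v, A ≤ vstab ρ v → v = 0

omit [Finite X] in
theorem NoFix.conj {ρ : X →* End K V} {A : Subgroup X} (h : NoFix ρ A) (x : X) :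
    NoFix ρ (cj x A) := fun v hv => by
  refine (rep_eq_zero_iff ρ x⁻¹).1 (h _ fun a ha => ?_)
  have := mem_vstab.1 (hv (H49.conj_mem_cj.2 ha))
  rw [rep_mul_apply, rep_mul_apply] at this
  rw [mem_vstab]
  conv_rhs => rw [← this, rep_inv_apply]

variable [IsAlgClosed K] [FiniteDimensional K U] [FiniteDimensional K V] {Q : Subgroup X}

omit [FiniteDimensional K V] in
theorem free_fix (ρ : X →* End K V) {σ : Q →* End K U} (hσ : Irr σ) (hK : (Nat.card Q : K) ≠ 0)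
    {f : U →ₗ[K] V} (hf : ∀ (g : Q) v, f (σ g v) = ρ g (f v)) {A B C : Subgroup X}
    (hV : NoFix ρ A) (hB : B ≤ 𝒩(Q)) (hS : ∀ b ∈ B, b ∈ stabS σ → b = 1)
    (hC : C ≤ 𝒩(B) ∨ B ≤ 𝒩(C)) (hA : A ≤ B ⊔ C) {u : U} (hu : C ≤ vstab ρ (f u)) : f u = 0 := by
  have := Fintype.ofFinite Q
  have := Fintype.ofFinite B
  have h2 := congrArg (proj σ (ρ.comp Q.subtype)) (hV _ (hA.trans (sup_le_vstab_sum ρ hC hu)))
  rw [map_sum, sum_eq_single 1 (fun b _ h0 => hσ.proj_kill _ hf (β := cjAut Q (hB b.2))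
    (fun h => h0 (Subtype.ext (hS b b.2 (mem_stabS.2 ⟨_, h⟩)))) (rep_cjAut ρ (hB b.2)) _)
    (fun h0 => absurd (mem_univ _) h0), map_zero] at h2
  exact hσ.eq_zero_of_proj (by rwa [← Nat.card_eq_fintype_card]) _ hf (by simpa using h2)

theorem exists_op (ρ : X →* End K V) {σ : Q →* End K U} (hσ : Irr σ) (hK : (Nat.card Q : K) ≠ 0)
    {f₀ : U →ₗ[K] V} (h0 : f₀ ≠ 0) (hf₀ : ∀ (g : Q) v, f₀ (σ g v) = ρ g (f₀ v)) {A B : Subgroup X}
    (hV : NoFix ρ A) (hB : B ≤ 𝒩(Q)) (hS : ∀ b ∈ B, b ∈ stabS σ → b = 1) {c : X}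
    (hC : zpowers c ≤ 𝒩(B) ∨ B ≤ 𝒩(zpowers c)) (hA : A ≤ B ⊔ zpowers c) (hc : c ∈ 𝒩(Q))
    (hcS : cjAut Q hc ∈ isoStab σ) {N : ℕ} (hN : c ^ N = 1) :
    ∃ (f : U →ₗ[K] V) (b : End K U), Function.Injective f ∧ (∀ (g : Q) v, f (σ g v) = ρ g (f v)) ∧
      (∀ v, f (b v) = ρ c (f v)) ∧ (∀ g, b * σ g = σ (cjAut Q hc g) * b) ∧ b ^ N = 1 ∧
      ∀ v, b v = v → v = 0 := by
  obtain ⟨f, b, hi, hf, h1, h2⟩ := hσ.exists_ext (ρ.comp Q.subtype) h0 hf₀ hcS (rep_cjAut ρ hc)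
  refine ⟨f, b, hi, hf, h1, h2, LinearMap.ext fun v => hi ?_, fun v hv => hi ?_⟩
  · have : ∀ n : ℕ, f ((b ^ n) v) = ρ (c ^ n) (f v) := fun n => by
      induction n with
      | zero => simp
      | succ n ih => rw [pow_succ', End.mul_apply, h1, ih, pow_succ', rep_mul_apply]
    rw [this, hN, map_one]; rfl
  · rw [map_zero]
    exact free_fix ρ hσ hK hf hV hB hS hC hA (zpowers_le.2 (by rw [mem_vstab, ← h1, hv]))

/-- Shult's theorem on an invariant subspace -/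
theorem shult_sub (ρ : X →* End K V) {s : X} {p : ℕ} (hp : p.Prime) (hs : s ∈ 𝒩(Q))
    (hsn : s ^ p = 1) (hN : (Nat.card Q).Coprime p) (hK : (Nat.card Q : K) ≠ 0)
    (hexc : ∀ t m : ℕ, t.Prime → t ∣ Nat.card Q → 1 ≤ m → p ≠ t ^ m + 1) {W : Submodule K V}
    (hW : Inv (ρ.comp (Q ⊔ zpowers s).subtype) W)
    (h0 : ∀ w ∈ W, (∑ i ∈ range p, ρ s ^ i) w = 0) {g : X} (hg : g ∈ Q) {w : V} (hw : w ∈ W) :
    ρ (s * g * s⁻¹) w = ρ g w := by
  let s' : ↥(Q ⊔ zpowers s) := ⟨s, mem_sup_right (mem_zpowers s)⟩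
  let π := QuotientGroup.mk' hW.res.ker
  have hd : Nat.card ((Q.subgroupOf (Q ⊔ zpowers s)).map π) ∣ Nat.card Q :=
    (card_map_dvd _ _).trans (card_subgroupOf_of_le le_sup_left).dvd
  have h1 : π s' ^ p ^ 0 ∈ 𝒞((Q.subgroupOf (Q ⊔ zpowers s)).map π) := by
    by_contra h1
    obtain ⟨t, -, -, -, -, ht, htd, -, -, -, -, -, -, -, -, e, k, m, h2, -, hm, h3, -⟩ :=
      exists_exc (fth hW.res) (fth_injective _) (n := 0) hp
        (mem_norm_map π (mem_norm_subgroupOf (s := s') hs))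
        (by rw [← map_pow, show s' ^ p ^ (0 + 1) = 1 from Subtype.ext (by simpa using hsn), map_one])
        (hN.coprime_dvd_left hd) (fun e => hK (by
          obtain ⟨c, hc⟩ := hd; rw [hc, Nat.cast_mul, e, zero_mul])) (by
          refine LinearMap.ext fun w => Subtype.ext ?_
          rw [fth_mk, ← show _ = ((0 : End K W) w : V) from h0 w w.2, zero_add, pow_one,
            LinearMap.sum_apply, LinearMap.sum_apply, Submodule.coe_sum]
          refine sum_congr rfl fun i _ => ?_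
          rw [← map_pow, ← map_pow]; rfl) h1
    obtain rfl : k = 0 := by omega
    exact hexc t m ht (htd.trans hd) hm (by simpa using h3)
  have h2 := h1 _ (mem_map_of_mem π (show (⟨g, mem_sup_left hg⟩ : ↥(Q ⊔ zpowers s)) ∈ _ from hg))
  rw [pow_zero, pow_one, eq_comm, ← mul_inv_eq_iff_eq_mul, ← map_inv, ← map_mul, ← map_mul] at h2
  have h3 := congrArg (fun y => (fth hW.res y ⟨w, hw⟩ : V)) h2
  simp only [π, fth_mk] at h3
  exact h3

/-- local Shult theorem -/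
theorem mem_fixS_of_op (ρ : X →* End K V) {σ : Q →* End K U} {s : X} {p : ℕ} (hp : p.Prime)
    (hs : s ∈ 𝒩(Q)) (hsn : s ^ p = 1) (hN : (Nat.card Q).Coprime p) (hK : (Nat.card Q : K) ≠ 0)
    (hexc : ∀ t m : ℕ, t.Prime → t ∣ Nat.card Q → 1 ≤ m → p ≠ t ^ m + 1) {f : U →ₗ[K] V}
    {b : End K U} (hi : Function.Injective f) (hf : ∀ (g : Q) v, f (σ g v) = ρ g (f v))
    (hb : ∀ v, f (b v) = ρ s (f v)) (hbn : b ^ p = 1) (h0 : ∀ v, b v = v → v = 0) :
    s ∈ fixS σ := by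
  have h1 : ∀ (n : ℕ) v, f ((b ^ n) v) = (ρ s ^ n) (f v) := fun n v => by
    induction n with
    | zero => simp
    | succ n ih => rw [pow_succ', End.mul_apply, hb, ih, pow_succ', End.mul_apply]
  have hW : Inv (ρ.comp (Q ⊔ zpowers s).subtype) (LinearMap.range f) := by
    let S : Subgroup X :=
      { carrier := {x | ∀ v ∈ LinearMap.range f, ρ x v ∈ LinearMap.range f}
        one_mem' := fun v hv => by simpa using hv
        mul_mem' := fun {a c} ha hc v hv => by rw [rep_mul_apply]; exact ha _ (hc v hv)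
        inv_mem' := fun {a} ha v hv => by
          obtain ⟨n, hn⟩ := mem_powers_iff_mem_zpowers.2 (inv_mem (mem_zpowers a))
          rw [← hn]
          clear hn
          induction n with
          | zero => simpa using hv
          | succ n ih => simp only [pow_succ', rep_mul_apply]; exact ha _ ih }
    have h2 : Q ⊔ zpowers s ≤ S := sup_le (by
      rintro g hg _ ⟨u, rfl⟩; exact ⟨_, hf ⟨g, hg⟩ u⟩) (zpowers_le.2 (by
      rintro _ ⟨u, rfl⟩; exact ⟨_, hb u⟩))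
    exact fun g v hv => h2 g.2 v hv
  refine ⟨hs, fun g => LinearMap.ext fun u => hi ?_⟩
  rw [hf, hf]
  refine shult_sub ρ hp hs hsn hN hK hexc hW ?_ g.2 ⟨u, rfl⟩
  rintro _ ⟨v, rfl⟩
  have := congrArg f (LinearMap.congr_fun (norm_eq_zero_of_fix hbn h0) v)
  simpa [h1] using this

/-- Shult's theorem for an elementary abelian section -/
theorem shult_sec {P W : Subgroup X} {s : X} {p t : ℕ} (hp : p.Prime) (ht : t.Prime)
    (hsP : s ∈ 𝒩(P)) (hsn : s ^ p = 1) (hN : (Nat.card P).Coprime p)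
    (hPt : (Nat.card P).Coprime t)
    (hexc : ∀ u m : ℕ, u.Prime → u ∣ Nat.card P → 1 ≤ m → p ≠ u ^ m + 1)
    (hQ : P ⊔ zpowers s ≤ 𝒩(Q)) (hW : P ⊔ zpowers s ≤ 𝒩(W)) (hWQ : W ≤ Q) (hab : ⁅Q, Q⁆ ≤ W)
    (hexp : ∀ u ∈ Q, u ^ t ∈ W) (hc : (orderOf s).Coprime (Nat.card W)) (hC : Q ⊓ 𝒞[s] ≤ W) :
    ⁅⁅P, zpowers s⁆, Q⁆ ≤ W := by
  have := Fact.mk ht
  obtain ⟨Z, _, _, π, V, _, _, _, ρ, -, hρ, h1, -, h2, -⟩ := exists_sec_lin (r := t)
    (P ⊔ zpowers s).subtype (fun a => hQ a.2) (fun a => hW a.2) hWQ hab hexp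
  let s' : ↥(P ⊔ zpowers s) := ⟨s, mem_sup_right (mem_zpowers s)⟩
  have hd : Nat.card ((P.subgroupOf (P ⊔ zpowers s)).map π) ∣ Nat.card P :=
    (card_map_dvd _ _).trans (card_subgroupOf_of_le le_sup_left).dvd
  have h3 : π s' ^ p = 1 := by
    rw [← map_pow, show s' ^ p = 1 from Subtype.ext hsn, map_one]
  have h4 : π s' ^ p ^ 0 ∈ 𝒞((P.subgroupOf (P ⊔ zpowers s)).map π) := by
    by_contra h4
    obtain ⟨t, -, -, -, -, ht, htd, -, -, -, -, -, -, -, -, e, k, m, h5, -, hm, h6, -⟩ :=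
      exists_exc ρ hρ (n := 0) hp (mem_norm_map π (mem_norm_subgroupOf (s := s') hsP))
        (by simpa using h3) (hN.coprime_dvd_left hd)
        (natCast_ne_zero_of_coprime (hPt.coprime_dvd_left hd))
        (by simpa using h2 s' p h3 fun u hu => mem_of_comm_mem (hQ s'.2) (hW s'.2) hc hC hu) h4
    obtain rfl : k = 0 := by omega
    exact hexc t m ht (htd.trans hd) hm (by simpa using h6)
  rw [pow_zero, pow_one] at h4
  have h5 : ⁅P, zpowers s⁆.subgroupOf (P ⊔ zpowers s) ≤ π.ker := by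
    rw [subgroupOf_commutator le_sup_left le_sup_right, ← Subgroup.map_eq_bot_iff, map_commutator,
      H49.commutator_eq_bot_iff]
    refine cent_symm ?_
    rintro _ ⟨⟨_, hy⟩, ⟨k, rfl⟩, rfl⟩
    exact (show π (s' ^ k) = _ from rfl) ▸ map_zpow π s' k ▸ zpow_mem h4 k
  exact commutator_le.2 fun y hy u hu => (h1 ⟨y, (commutator_le_left_of_norm
    (zpowers_le.2 hsP)).trans le_sup_left hy⟩).1 (h5 hy) u hu

end Cfsg.Agent.H89
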