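import Cfsg.Agent.H89.PQ1

/-! Non-abelian groups of order `p q` acting without fixed points: the linear part. -/

set_option autoImplicit false

namespace Cfsg.Agent.H89

open Module Finset Subgroup
open H49 hiding fixS
open H79 hiding cj rep_inv_apply
open scoped commutatorElement

variable {X : Type*} [Group X] [Finite X] {K : Type*} [Field K] {U V : Type*} [AddCommGroup U]
  [Module K U] [AddCommGroup V] [Module K V] {Q : Subgroup X}

/-- `C_Q(s)` fixes the norms of `s` -/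
def Kill (ρ : X →* End K V) (Q : Subgroup X) (s : X) (q : ℕ) : Prop :=
  ∀ g ∈ Q ⊓ 𝒞[s], (ρ g - 1) * ∑ i ∈ range q, ρ s ^ i = 0

omit [Finite X] in
theorem Kill.conj {ρ : X →* End K V} {s x : X} {q : ℕ} (h : Kill ρ Q s q) (hx : x ∈ 𝒩(Q)) :
    Kill ρ Q (x * s * x⁻¹) q := fun g hg => by
  have h1 := h (x⁻¹ * g * x) ⟨(mem_normalizer_iff''.1 hx g).1 hg.1, by
    have := (mem_inf.1 hg).2
    rwa [← cj_cent1, H49.mem_cj] at this⟩
  have h2 : ρ x * ρ x⁻¹ = 1 := by rw [← map_mul, mul_inv_cancel, map_one]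
  have h3 : ρ x⁻¹ * ρ x = 1 := by rw [← map_mul, inv_mul_cancel, map_one]
  have h4 : ∑ i ∈ range q, ρ (x * s * x⁻¹) ^ i = ρ x * (∑ i ∈ range q, ρ s ^ i) * ρ x⁻¹ := by
    rw [mul_sum, sum_mul]
    exact sum_congr rfl fun i _ => by rw [← map_pow, conj_pow, map_mul, map_mul, map_pow]
  have h5 : (ρ g - 1) * ρ x = ρ x * (ρ (x⁻¹ * g * x) - 1) := by
    rw [mul_sub, sub_mul, ← map_mul, ← map_mul, mul_one, one_mul]
    congr 2; group
  rw [h4, ← mul_assoc, ← mul_assoc, h5, mul_assoc (ρ x), h1, mul_zero, zero_mul]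

omit [Finite X] in
theorem fixS_le_stabS {σ : Q →* End K U} : fixS σ ≤ stabS σ := fun _ ⟨h, h'⟩ =>
  mem_stabS.2 ⟨h, mem_isoStab_of_conj σ 1 fun g => by rw [h']; simp⟩

theorem arith_exc {p t m c n : ℕ} (hp : p.Prime) (ht : 2 ≤ t) (hm : 1 ≤ m) (h1 : p = t ^ m + 1)
    (h2 : c ^ p = n ^ 2) (h3 : c ^ p ≤ c * t ^ (2 * m)) : c ≤ 1 := by
  have h4 : 2 ≤ t ^ m := ht.trans (Nat.le_self_pow (by omega) t)
  obtain ⟨e, rfl, -⟩ := Nat.exists_eq_pow_of_exponent_coprime_of_pow_eq_pow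
    ((Nat.coprime_primes hp Nat.prime_two).2 (by omega)) h2
  by_contra h5
  have h6 : 2 ≤ e := by
    by_contra h6
    interval_cases e <;> simp at h5
  rw [h1, pow_succ', mul_comm 2 m, pow_mul t] at h3
  have h7 := Nat.le_of_mul_le_mul_left h3 (by positivity)
  rw [← pow_mul, mul_comm, pow_mul] at h7
  have h8 := (Nat.pow_le_pow_iff_left two_ne_zero).1 h7
  exact absurd h8 (not_le.2 (Nat.lt_pow_self h6))

variable [IsAlgClosed K] [FiniteDimensional K U] [FiniteDimensional K V] [Nontrivial U]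

theorem frob_exc {σ : Q →* End K U} (hσ : Irr σ) {p t : ℕ} (hp : p.Prime) (ht : t.Prime)
    (hpt : p ≠ t) (hQ : IsPGroup t Q) (htK : (t : K) ≠ 0) (hpK : (p : K) ≠ 0)
    (hcl : ⁅Q, Q⁆ ≤ radS σ) {P : Subgroup X} {c : X} (hc : c ∈ 𝒩(Q))
    (hcS : cjAut Q hc ∈ isoStab σ) (hco : orderOf c = p) (hP : P ≤ stabS σ) (hcP : c ∈ 𝒩(P))
    (hPc : P ⊓ 𝒞[c] = ⊥) (hPp : (Nat.card P).Coprime p) (hPQ : (Nat.card P).Coprime (Nat.card Q))
    (hQP : Q ≤ ⁅Q, P⁆) {b : End K U} (hb : ∀ g, b * σ g = σ (cjAut Q hc g) * b) (hbn : b ^ p = 1)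
    (h0 : ∀ v, b v = v → v = 0) : Q ≤ kerS σ := by
  have := Fact.mk ht
  have := Fintype.ofFinite Q
  have hPN : P ≤ 𝒩(Q) := fun a ha => (mem_stabS.1 (hP ha)).1
  have hPR : P ≤ 𝒩(radS σ) := fun a ha => mem_norm_radS _ (mem_stabS.1 (hP ha)).2
  have hcR : zpowers c ≤ 𝒩(radS σ) := zpowers_le.2 (mem_norm_radS _ hcS)
  have hQp : (Nat.card Q).Coprime p := coprime_of_pgroup hp ht hpt hQ
  have hz : Nat.card (zpowers c) = p := by rw [Nat.card_zpowers, hco]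
  have hsQ : Group.IsSolvable Q := H50.solvable_of_pgroup hQ
  suffices Q ≤ radS σ from hQP.trans ((commutator_mono this le_rfl).trans
    (comm_le_kerS radS_le hPN fun a ha g hg => hσ.res_cj _ (mem_stabS.1 (hP ha)).2 hg))
  have hE : ⁅Q, zpowers c⁆ ≤ perpS σ 𝒞[c] := by
    rw [Subgroup.commutator_comm, commutator_le]
    rintro _ ⟨i, rfl⟩ g hg
    obtain ⟨n, hn⟩ := mem_powers_iff_mem_zpowers.2 (zpow_mem_zpowers c i)
    have h1 := hσ.comm_mem_perpS hcl (pow_mem hc n) (cjAut_pow hc n ▸ pow_mem hcS n) hg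
    simp only at hn ⊢
    rw [← hn]
    lift ⁅c ^ n, g⁆ to Q using perpS_le h1 with y
    exact coe_mem_perpS.2 fun d hd => coe_mem_perpS.1 h1 d
      (mem_cent1_comm.1 (pow_mem (mem_cent1_comm.1 hd) n))
  have hPP : ⁅P, zpowers c⁆ = P := coprime_comm_eq_of_cent (zpowers_le.2 hcP) (hz ▸ hPp.symm)
    (.inl inferInstance) (by rwa [cent_zpowers])
  by_cases hE' : perpS σ 𝒞[c] ≤ radS σ
  · exact le_of_comm_comm hPP.ge hQP hPN hPR hcR norm_radS (hE.trans hE')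
  obtain ⟨⟨m, hm, h1, h2⟩, -⟩ := hσ.exc_struct (k := 0) hp ht hpt hQ htK hpK hcl hc
    (by rw [zero_add, pow_one, ← hco, pow_orderOf_eq_one]) hb (by simpa using hbn) h0
    (by simpa using hE')
  rw [zero_add, pow_one] at h1
  rw [pow_zero, pow_one] at h2
  set R := radS σ
  have hab : IsMulCommutative (quo Q R) := (quo_abelian_iff norm_radS).2 hcl
  have hcop : ∀ B : Subgroup X, (Nat.card B).Coprime (Nat.card Q) →
      (Nat.card (quo B R)).Coprime (Nat.card (quo Q R)) := fun B h =>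
    (h.coprime_dvd_left (card_quo_dvd _ _)).coprime_dvd_right (card_quo_dvd _ _)
  have hzq : Nat.card (quo (zpowers c) R) = p := by
    rw [card_quo_of_disjoint hcR (H49.inf_eq_bot_of_coprime
      (hz ▸ hQp.symm.coprime_dvd_right (card_dvd_of_le radS_le))), hz]
  have h3 := coprime_abelian_dp hab (quo_norm R hPN) (hcop P hPQ)
  have h4 := coprime_abelian_dp hab (quo_norm R (zpowers_le.2 hc)) (hcop _ (hz ▸ hQp.symm))
  have h5 := frob_card_of_cent_eq_bot (M := quo Q R) (quo_norm R (zpowers_le.2 hcP))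
    (semiregular_of_prime_card (hzq ▸ hp) (by
      rw [← coprime_quo_cent (zpowers_le.2 hcP) hcR
        (hz ▸ hQp.symm.coprime_dvd_right (card_dvd_of_le radS_le)) (.inl inferInstance),
        cent_zpowers, hPc, quo_bot]))
    (sup_le (quo_norm R hPN) (quo_norm R (zpowers_le.2 hc))) (solvable_quo hsQ R)
    (coprime_sup_right (.inr (quo_norm R (zpowers_le.2 hcP))) (hcop P hPQ).symm
      (hcop _ (hz ▸ hQp.symm)).symm) (by
      rw [← h3.2.1, ← quo_commutator norm_radS hPR]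
      exact (inf_eq_left.2 (inf_le_left.trans (quo_mono R hQP))).symm)
  have h6 : Nat.card (quo Q R) = finrank K U ^ 2 := by
    rw [card_quo norm_radS, relIndex_radS]
    exact hσ.index_rad (card_ne_zero_of_pgroup ht htK hQ) fun g k =>
      coe_mem_radS.1 (hcl (commutator_mem_commutator g.2 k.2))
  have h7 : Nat.card ↥⁅quo Q R, quo (zpowers c) R⁆ ≤ t ^ (2 * m) := by
    rw [← h2, ← card_quo (perpS_le.trans norm_radS), ← quo_commutator norm_radS hcR]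
    exact card_le_of_le (quo_mono R hE)
  rw [hzq] at h5
  have h8 := arith_exc hp ht.two_le hm h1 (h5.symm.trans h6) (by
    rw [← h5]
    conv_lhs => rw [← h4.card]
    exact Nat.mul_le_mul_left _ h7)
  rw [le_antisymm h8 Nat.card_pos, one_pow, Subgroup.card_eq_one] at h5
  exact (quo_eq_bot_iff norm_radS).1 h5

namespace PQ

variable {p q : ℕ} {A : Subgroup X} {s : X} (h : PQ p q A s) (ρ : X →* End K V)
  {σ : Q →* End K U} (hσ : Irr σ) (hK : (Nat.card Q : K) ≠ 0) {f : U →ₗ[K] V}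
  (hf : ∀ (g : Q) v, f (σ g v) = ρ g (f v)) (hi : Function.Injective f)
include h hσ hK hf hi

theorem cases (hV : NoFix ρ A) (hAQ : A ≤ 𝒩(Q)) (hA : ¬ A ≤ stabS σ)
    (hcop : (Nat.card Q).Coprime (p * q)) :
    s ∈ fixS σ ∨ (s ∉ stabS σ ∧ ∃ b ∈ A, b ∉ zpowers s ∧ b ∈ stabS σ) := by
  obtain ⟨u, hu⟩ := exists_ne (0 : U)
  have hu' : f u ≠ 0 := fun e => hu (hi (e.trans (map_zero f).symm))
  by_cases hs : s ∈ stabS σ
  · obtain ⟨a, ha, has⟩ := h.exists_not_mem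
    have h1 := h.gen h.mem ha h.s_ne has
    obtain ⟨hn, hS⟩ := mem_stabS.1 hs
    obtain ⟨g, b, h2, h3, h4, -, h5, h6⟩ := exists_op ρ hσ hK (fun e => hu' (by simp [e])) hf hV
      ((zpowers_le.2 ha).trans hAQ) (fun b hb hbS => by_contra fun hb1 => hA (h1.trans (sup_le
        (zpowers_le.2 hs) (zpowers_le.2 (mem_of_mem_zpowers_prime h.hp (h.powp ha has) hb hb1
          hbS))))) (.inr ((zpowers_le.2 ha).trans h.norm)) (h1.trans (sup_comm _ _).le) hn hS h.pow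
    exact .inl (mem_fixS_of_op ρ h.hq hn h.pow hcop.coprime_mul_left_right hK (h.no_exc hcop)
      h2 h3 h4 h5 h6)
  refine .inr ⟨hs, ?_⟩
  by_contra h1
  push Not at h1
  refine hu' (free_fix ρ hσ hK hf hV hAQ (C := ⊥) (fun b hb hbS => by_contra fun hb1 => hs ?_)
    (.inl bot_le) le_sup_left bot_le)
  exact mem_of_mem_zpowers_prime h.hq h.pow (by_contra fun h2 => h1 b hb h2 hbS) hb1 hbS

theorem op (hV : NoFix ρ A) (hAQ : A ≤ 𝒩(Q)) (hs : s ∉ stabS σ) {c : X} (hc : c ∈ A)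
    (hcs : c ∉ zpowers s) (hS : cjAut Q (hAQ hc) ∈ isoStab σ) :
    ∃ b : End K U, (∀ g, b * σ g = σ (cjAut Q (hAQ hc) g) * b) ∧ b ^ p = 1 ∧
      ∀ v, b v = v → v = 0 := by
  obtain ⟨u, hu⟩ := exists_ne (0 : U)
  obtain ⟨g, b, -, -, -, h4⟩ := exists_op ρ hσ hK
    (fun e => hu (hi (by simp [e]))) hf hV ((zpowers_le.2 h.mem).trans hAQ)
    (fun b hb hbS => by_contra fun hb1 => hs (mem_of_mem_zpowers_prime h.hq h.pow hb hb1 hbS))
    (.inl ((zpowers_le.2 hc).trans h.norm)) (h.gen h.mem hc h.s_ne hcs) (hAQ hc) hS (h.powp hc hcs)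
  exact ⟨b, h4⟩

omit [FiniteDimensional K V] [Nontrivial U] in
theorem cent_le_ker (hsQ : s ∈ 𝒩(Q)) (hs : s ∉ stabS σ) (h1 : Kill ρ Q s q) :
    Q ⊓ 𝒞[s] ≤ kerS σ := fun g hg =>
  hσ.mem_kerS_of_norm ρ hK hf hi hsQ h.hq.pos (fun i h2 h3 hS => hs (mem_of_pow_mem_prime h.hq
    h.pow (fun e => absurd (orderOf_le_of_pow_eq_one h2 e) (by rw [h.ord]; omega)) hS)) hg (h1 g hg)

end PQ

omit [Finite X] [IsAlgClosed K] [FiniteDimensional K U] [FiniteDimensional K V] [Nontrivial U] in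
theorem comm_zpowers_le {P D : Subgroup X} {b : X} (h : ∀ x ∈ P, x * b * x⁻¹ ∈ D) :
    ⁅P, zpowers b⁆ ≤ D := by
  rw [commutator_le]
  rintro x hx _ ⟨k, rfl⟩
  have := mul_mem (zpow_mem (h x hx) k) (inv_mem (zpow_mem (h 1 P.one_mem) k))
  rwa [conj_zpow, one_mul, inv_one, mul_one] at this

omit [FiniteDimensional K U] [Nontrivial U] in
theorem PQ.lin {p q : ℕ} {A : Subgroup X} {s : X} (h : PQ p q A s) (ρ : X →* End K V)
    (hρ : Function.Injective ρ) {O P : Subgroup X} {t : ℕ} (ht : t.Prime) (hO : IsPGroup t O)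
    (htK : (t : K) ≠ 0) (hpK : (p : K) ≠ 0) (hAP : A ≤ 𝒩(P)) (hAO : A ≤ 𝒩(O)) (hPO : P ≤ 𝒩(O))
    (hOc : (Nat.card O).Coprime (p * q)) (hPc : (Nat.card P).Coprime (p * q))
    (hPt : (Nat.card P).Coprime t) (hCO : O ⊓ 𝒞(A) = ⊥)
    (hCP : P ⊓ 𝒞(A) = ⊥) (hV : NoFix ρ A) (h1 : Kill ρ O s q)
    (h2 : O ⊓ 𝒞[s] ≤ 𝒞(P ⊓ 𝒞[s])) : O ≤ 𝒞(P) := by
  have := Fact.mk ht
  by_contra hne
  have hPO' : (Nat.card P).Coprime (Nat.card O) := (H50.coprime_card_of_pgroup hO hPt)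
  obtain ⟨t', Q, -, -, hQO, -, hPAQ, hQP, hcomm, hC, hmin⟩ := exists_critical (A := P ⊔ A) (B := P)
    (sup_le hPO hAO) (coprime_sup_right (.inr hAP) hPO'.symm (h.card ▸ hOc)).symm
    (.inr (H50.solvable_of_pgroup hO)) le_sup_left (sup_le le_normalizer hAP) hne
  have hQ : IsPGroup t Q := hO.to_le hQO
  have hPQ : P ≤ 𝒩(Q) := le_sup_left.trans hPAQ
  have hAQ : A ≤ 𝒩(Q) := le_sup_right.trans hPAQ
  have hQc : (Nat.card Q).Coprime (p * q) := hOc.coprime_dvd_left (card_dvd_of_le hQO)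
  have hPQ' : (Nat.card P).Coprime (Nat.card Q) := hPO'.coprime_dvd_right (card_dvd_of_le hQO)
  have hsQ : Group.IsSolvable Q := H50.solvable_of_pgroup hQ
  have := Fintype.ofFinite Q
  have hK := card_ne_zero_of_pgroup ht htK hQ
  have hQ1 : Q ≠ ⊥ := fun e => hQP (e ▸ bot_le)
  obtain ⟨g, hg, hg1⟩ := ne_bot_iff_exists.1 hQ1
  obtain ⟨U, hU, hU0, hσ, hne'⟩ := exists_irr_ne (ρ.comp Q.subtype) hK (g := ⟨g, hg⟩) (k := 1)
    fun e => hg1 (hρ e)
  rw [← Nat.card_eq_fintype_card] at hK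
  have := Submodule.nontrivial_iff_ne_bot.2 hU0
  have hk : ¬ Q ≤ kerS hU.res := fun e => hne' (by rw [map_one, ← coe_mem_kerS]; exact e hg)
  have hΦ := le_inf (H50.frattiniOf_le Q) (hmin _ (frattiniOf_lt hQ1)
    (hPAQ.trans (H50.norm_le_norm_frattiniOf Q)))
  have hcl : ⁅Q, Q⁆ ≤ radS hU.res := (le_inf der_le ((H50.der_le_frattiniOf hQ).trans
    (hΦ.trans hC))).trans cent_le_radS
  have hAx : ∀ x ∈ P, cj x A ≤ 𝒩(Q) := fun x hx =>
    (H49.cj_le_of_mem (le_sup_right : A ≤ P ⊔ A) (mem_sup_left hx)).trans hPAQ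
  have F2 : ∀ x ∈ P, ¬ cj x A ≤ stabS hU.res := fun x hx e => hk (hσ.le_kerS_of_stab
    hQ.isNilpotent e (by rw [H49.card_cj, h.card]; exact hQc.symm) (by
      rw [← cj_eq_of_mem_norm (hPQ hx), ← H49.cj_centralizer, ← H49.cj_inf, H49.cj_eq_bot_iff]
      exact le_bot_iff.1 ((inf_le_inf_right _ hQO).trans hCO.le)))
  have F1 := fun x (hx : x ∈ P) => (h.conj x).cases ρ hσ hK (f := U.subtype) (fun _ _ => rfl)
    U.injective_subtype (hV.conj x) (hAx x hx) (F2 x hx) hQc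
  have F3 : ∀ x ∈ P, ∀ y ∈ P, ∀ a ∈ A, ∀ b ∈ A, a ≠ 1 → x * a * x⁻¹ ∈ stabS hU.res →
      y * b * y⁻¹ ∈ stabS hU.res → b ∈ zpowers a := fun x hx y hy a ha b hb ha1 e1 e2 => by
    by_contra hab
    have key : ∀ x ∈ P, ∀ a ∈ A, x * a * x⁻¹ ∈ stabS hU.res →
        zpowers a ≤ P ⊔ stabS hU.res ⊓ 𝒩(P) := fun x hx a ha e => zpowers_le.2 (by
      rw [show a = x⁻¹ * (x * a * x⁻¹) * x by group]
      exact mul_mem (mul_mem (mem_sup_left (inv_mem hx)) (mem_sup_right ⟨e, mul_mem (mul_mem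
        (le_normalizer hx) (hAP ha)) (le_normalizer (inv_mem hx))⟩)) (mem_sup_left hx))
    obtain ⟨n, hn, e⟩ := sz_subJ hAP (h.card ▸ hPc.symm) (.inl h.solv) inf_le_right
      ((h.gen ha hb ha1 hab).trans (sup_le (key x hx a ha e1) (key y hy b hb e2)))
    exact F2 n hn (e.trans inf_le_left)
  have hcz : ∀ b ∈ A, ∀ R : Subgroup X, (Nat.card R).Coprime (p * q) →
      (Nat.card (zpowers b)).Coprime (Nat.card R) := fun b hb R hR =>
    (h.card ▸ hR.symm : (Nat.card A).Coprime _).coprime_dvd_left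
      (card_dvd_of_le (zpowers_le.2 hb))
  have hsP' : zpowers s ≤ 𝒩(P) := zpowers_le.2 (hAP h.mem)
  have hsQ' : zpowers s ≤ 𝒩(Q) := zpowers_le.2 (hAQ h.mem)
  have hP12 := coprime_comm_sup_cent hsP' (hcz s h.mem P hPc) (.inl inferInstance)
  rw [cent_zpowers] at hP12
  by_cases hs : ∃ y ∈ P, y * s * y⁻¹ ∈ stabS hU.res
  · obtain ⟨y, hy, hs⟩ := hs
    have h3 : ∀ x ∈ P, x * s * x⁻¹ ∈ fixS hU.res := fun x hx =>
      (F1 x hx).resolve_right fun ⟨_, b, hb, hbs, hbS⟩ => by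
        obtain ⟨a, ha, rfl⟩ := mem_cj'.1 hb
        refine hbs ?_
        rw [← H49.cj_zpowers, H49.conj_mem_cj]
        exact F3 y hy x hx s h.mem a ha h.s_ne hs hbS
    have h4 : zpowers s ≤ fixS hU.res := zpowers_le.2 (by simpa using h3 1 P.one_mem)
    have h5 : P ≤ fixS hU.res := by
      rw [← hP12]
      refine sup_le (comm_zpowers_le h3) fun c hc => ⟨hPQ hc.1, fun g => ?_⟩
      obtain ⟨k, hk, d, hd, e⟩ := (mem_sup_of_norm_left (inf_le_left.trans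
        (le_norm_commutator_left _ _))).1 ((coprime_comm_sup_cent hsQ' (hcz s h.mem Q hQc)
          (.inl inferInstance)).ge g.2)
      have hkQ := commutator_le_left_of_norm hsQ' hk
      have h6 : ⁅Q, zpowers s⁆ ≤ kerS hU.res := (commutator_mono le_rfl h4).trans (comm_fixS_le _)
      rw [cent_zpowers] at hd
      have h7 : cjAut Q (hPQ hc.1) ⟨d, hd.1⟩ = ⟨d, hd.1⟩ :=
        Subtype.ext (mul_inv_eq_iff_eq_mul.2 (h2 ⟨hQO hd.1, hd.2⟩ c hc))
      rw [show g = ⟨k, hkQ⟩ * ⟨d, hd.1⟩ from Subtype.ext e, map_mul, map_mul, map_mul, h7,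
        (coe_mem_kerS (g := ⟨k, hkQ⟩)).1 (h6 hk), coe_mem_kerS.1 (h6 (conj_mem_of_norm
          (norm_commutator (inf_le_left.trans hPQ) (norm_of_cent (cent_zpowers s ▸ inf_le_right)))
          hc hk))]
    exact hk (hcomm.ge.trans ((commutator_mono le_rfl h5).trans (comm_fixS_le _)))
  push Not at hs
  have F4 : ∀ x ∈ P, ∃ b ∈ A, b ∉ zpowers s ∧ x * b * x⁻¹ ∈ stabS hU.res := fun x hx => by
    obtain ⟨-, b, hb, hbs, hbS⟩ := (F1 x hx).resolve_left fun e => hs x hx (fixS_le_stabS e)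
    obtain ⟨a, ha, rfl⟩ := mem_cj'.1 hb
    exact ⟨a, ha, fun e => hbs (by rwa [← H49.cj_zpowers, H49.conj_mem_cj]), hbS⟩
  obtain ⟨b, hb, hbs, hbS⟩ := F4 1 P.one_mem
  have h3 : ⁅P, zpowers b⁆ ≤ stabS hU.res := comm_zpowers_le fun x hx => by
    obtain ⟨a, ha, has, haS⟩ := F4 x hx
    obtain ⟨k, rfl⟩ := F3 x hx 1 P.one_mem a ha b hb (fun e => has (e ▸ one_mem _)) haS hbS
    simpa only [conj_zpow] using zpow_mem haS k
  rw [one_mul, inv_one, mul_one] at hbS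
  have h4 : Q ⊓ 𝒞[s] ≤ 𝒞(P) := by
    let R := closure {y | ∃ x ∈ P, ∃ c ∈ Q ⊓ 𝒞[s], y = x * c * x⁻¹}
    have hR : R ≤ kerS hU.res := (closure_le _).2 (by
      rintro _ ⟨x, hx, c, hc, rfl⟩
      refine (h.conj x).cent_le_ker ρ hσ hK (f := U.subtype) (fun _ _ => rfl) U.injective_subtype
        (hAx x hx (h.conj x).mem) (hs x hx)
        (Kill.conj (fun g hg => h1 g ⟨hQO hg.1, hg.2⟩) (hPQ hx)) (mem_inf.2
          ⟨conj_mem_of_norm hPQ hx hc.1, ?_⟩)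
      rw [← cj_cent1, H49.conj_mem_cj]
      exact hc.2)
    refine le_trans (b := R) (fun c hc => Subgroup.subset_closure ⟨1, P.one_mem, c, hc, by simp⟩)
      (hmin R (lt_of_le_of_ne (hR.trans kerS_le) fun e => hk (e.ge.trans hR)) ?_)
    have hA' : A ≤ 𝒩(Q ⊓ 𝒞[s]) := norm_inf hAQ (cent_zpowers s ▸ norm_cent h.norm)
    refine sup_le (fun z hz => mem_norm_of_cj_le ?_) fun z hz => mem_norm_of_cj_le ?_ <;>
      rw [cj_def, MonoidHom.map_closure] <;> refine closure_mono ?_ <;>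
      rintro _ ⟨_, ⟨x, hx, c, hc, rfl⟩, rfl⟩
    · exact ⟨z * x, mul_mem hz hx, c, hc, by simp [mul_assoc]⟩
    · exact ⟨_, conj_mem_of_norm hAP hz hx, _, conj_mem_of_norm hA' hz hc, by simp [mul_assoc]⟩
  have hW : P ⊔ A ≤ 𝒩(Q ⊓ 𝒞(P)) := norm_inf hPAQ (norm_cent (sup_le le_normalizer hAP))
  have hsA : P ⊔ zpowers s ≤ P ⊔ A := sup_le_sup_left (zpowers_le.2 h.mem) _
  have h5 : ⁅P, zpowers s⁆ ≤ 𝒞(Q) := by
    have h6 : ⁅P, zpowers s⁆ ≤ P := commutator_le_left_of_norm hsP'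
    refine coprime_cent_of_stable (h6.trans hPQ) (hPQ'.coprime_dvd_left (card_dvd_of_le h6))
      (.inr hsQ) (le_trans ?_ ((inf_le_right : Q ⊓ 𝒞(P) ≤ _).trans (cent_anti h6)))
    rw [Subgroup.commutator_comm]
    exact shult_sec h.hq ht (hAP h.mem) h.pow hPc.coprime_mul_left_right hPt (h.no_exc hPc)
      (hsA.trans hPAQ) (hsA.trans hW) inf_le_left ((H50.der_le_frattiniOf hQ).trans hΦ)
      (fun u hu => hΦ (H50.pow_mem_frattiniOf hQ hu)) (h.ord ▸
        (hQc.coprime_mul_left_right.coprime_dvd_left (card_dvd_of_le inf_le_left)).symm)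
      (le_inf inf_le_left h4)
  have h6 : Q ≤ ⁅Q, P ⊓ 𝒞[s]⁆ := by
    conv_lhs => rw [← hcomm, ← hP12]
    refine H50.commutator_sup_right_le (le_norm_commutator_left _ _) (norm_of_cent (h5.trans
      (cent_anti (commutator_le_left_of_norm (inf_le_left.trans hPQ)))))
      (le_norm_commutator_right _ _) ?_ le_rfl
    rw [H49.commutator_eq_bot_iff.2 (cent_symm h5)]
    exact bot_le
  have hbP : b ∈ 𝒩(P ⊓ 𝒞[s]) := norm_inf hAP (cent_zpowers s ▸ norm_cent h.norm) hb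
  have h7 : P ⊓ 𝒞[s] ⊓ 𝒞[b] = ⊥ := by
    refine le_bot_iff.1 (le_trans ?_ hCP.le)
    rw [inf_assoc, ← cent_zpowers, ← cent_zpowers, ← cent_sup]
    exact inf_le_inf_left _ (cent_anti (h.gen h.mem hb h.s_ne hbs))
  have hP1 : (Nat.card ↥(P ⊓ 𝒞[s])).Coprime (p * q) :=
    hPc.coprime_dvd_left (card_dvd_of_le inf_le_left)
  obtain ⟨c, h8, h9, h10⟩ := h.op ρ hσ hK (f := U.subtype) (fun _ _ => rfl) U.injective_subtype hV
    hAQ (by simpa using hs 1 P.one_mem) hb hbs (mem_stabS.1 hbS).2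
  refine hk (frob_exc hσ h.hp ht ?_ hQ htK hpK hcl (hAQ hb) (mem_stabS.1 hbS).2 (h.ordp hb hbs) ?_
    hbP h7 hP1.coprime_mul_right_right (hPQ'.coprime_dvd_left (card_dvd_of_le inf_le_left)) h6
    h8 h9 h10)
  · rintro rfl
    exact h.hp.one_lt.ne' (Nat.Coprime.eq_one_of_dvd hQc.coprime_mul_right_right.symm
      ((isPi_of_isPGroup ht hQ).dvd_card hQ1))
  · rw [← coprime_comm_eq_of_cent (zpowers_le.2 hbP) (hcz b hb _ hP1) (.inl inferInstance)
      (by rwa [cent_zpowers])]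
    exact (commutator_mono inf_le_left le_rfl).trans h3

omit [IsAlgClosed K] [FiniteDimensional K U] [FiniteDimensional K V] [Nontrivial U] in
theorem norm_of_comm_le {M N B : Subgroup X} (hN : N ≤ M) (h : ⁅B, M⁆ ≤ N) : B ≤ 𝒩(N) :=
  fun b hb => mem_normalizer_fintype fun n hn => by
    have := mul_mem (h (commutator_mem_commutator hb (hN hn))) hn
    rwa [commutatorElement_def, inv_mul_cancel_right] at this

omit [IsAlgClosed K] [FiniteDimensional K U] [FiniteDimensional K V] [Nontrivial U] in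
theorem PQ.abelian {A M : Subgroup X} {s : X} {q : ℕ} (h : PQ 2 q A s) (hAM : A ≤ 𝒩(M))
    (hC : M ⊓ 𝒞(A) = ⊥) : IsMulCommutative ↥(M ⊓ 𝒞[s]) := by
  obtain ⟨a, ha, has⟩ := h.exists_not_mem
  have hn : a ∈ 𝒩(M ⊓ 𝒞[s]) := norm_inf hAM (cent_zpowers s ▸ norm_cent h.norm) ha
  have h1 : MonoidHom.FixedPointFree (cjAut _ hn) := fun g hg => by
    refine Subtype.ext (mem_bot.1 (hC.le ⟨g.2.1, cent_anti (h.gen h.mem ha h.s_ne has) ?_⟩))
    rw [cent_sup, cent_zpowers, cent_zpowers]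
    exact ⟨g.2.2, mem_cent1.2 (mul_inv_eq_iff_eq_mul.1 (congrArg Subtype.val hg)).symm⟩
  exact ⟨⟨fun x y => (h1.commute_all_of_involutive (fun g => Subtype.ext (by
    rw [coe_cjAut, coe_cjAut]
    calc _ = a ^ 2 * g * (a ^ 2)⁻¹ := by rw [pow_two]; group
      _ = g := by rw [h.powp ha has]; group)) x y).eq⟩⟩

omit [IsAlgClosed K] [FiniteDimensional K U] [FiniteDimensional K V] [Nontrivial U] in
theorem PQ.der_le {A M L : Subgroup X} {s b : X} (h : PQ 2 3 A s) (hAM : A ≤ 𝒩(M))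
    (hc : (Nat.card M).Coprime (2 * 3)) (hC : M ⊓ 𝒞(A) = ⊥) (hL : L ≤ M) (hn : M ≤ 𝒩(L))
    (hb : b ∈ A) (hbs : b ∉ zpowers s) (h1 : ⁅M, zpowers b⁆ ≤ L) (h2 : M ⊓ 𝒞[s] ≤ L) :
    ⁅M, M⁆ ≤ L := by
  have hM : ⁅M, A⁆ = M := coprime_comm_eq_of_cent hAM (h.card ▸ hc.symm) (.inl h.solv) hC
  have hL' : ∀ a ∈ A, cj a L ≤ M := fun a ha => cj_le_of_mem_norm hL (hAM ha)
  have hn' : ∀ a ∈ A, M ≤ 𝒩(cj a L) := fun a ha => by
    rw [← H49.cj_normalizer, ← cj_eq_of_mem_norm (hAM ha)]; exact H49.cj_mono _ hn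
  have key : ∀ a ∈ zpowers s, a ≠ 1 → M ≤ L ⊔ cj a L := fun a ha ha1 => by
    have haA := zpowers_le.2 h.mem ha
    have h3 : ⁅M, zpowers (a * b * a⁻¹)⁆ ≤ cj a L := by
      rw [← H49.cj_zpowers, ← cj_eq_of_mem_norm (hAM haA), ← H49.cj_commutator]
      exact H49.cj_mono _ h1
    have h4 : a * b * a⁻¹ ∉ zpowers b := fun e => ha1 (mem_bot.1 ((h.cent hb hbs).le
      ⟨ha, mem_cent1.2 (mul_inv_eq_iff_eq_mul.1 ?_)⟩))
    · have hN : L ⊔ cj a L ≤ M := sup_le hL (hL' a haA)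
      conv_lhs => rw [← hM]
      refine (commutator_mono le_rfl (h.gen hb (mul_mem (mul_mem haA hb) (inv_mem haA))
        (fun e => hbs (e ▸ one_mem _)) h4)).trans (H50.commutator_sup_right_le
        (norm_sup hn (hn' a haA)) (norm_of_comm_le hN ?_) (norm_of_comm_le hN ?_)
        (h1.trans le_sup_left) (h3.trans le_sup_right)) <;> rw [Subgroup.commutator_comm]
      · exact h1.trans le_sup_left
      · exact h3.trans le_sup_right
    · obtain ⟨k, hk⟩ := mem_powers_iff_mem_zpowers.2 e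
      simp only at hk
      rw [← pow_mod_orderOf, h.ordp hb hbs] at hk
      rcases Nat.mod_two_eq_zero_or_one k with e | e <;> rw [e] at hk
      · rw [pow_zero, eq_comm, conj_eq_one_iff] at hk
        exact absurd (hk ▸ one_mem _) hbs
      · rw [← hk, pow_one]
  have hs3 : s * s = s⁻¹ := by rw [eq_inv_iff_mul_eq_one, ← h.pow, pow_three, mul_assoc]
  have h5 : cj s L ⊓ cj s⁻¹ L ≤ L := fun y hy => by
    have hyM := hL' s h.mem hy.1
    have hw : s * y * s⁻¹ * (s⁻¹ * y * s) ∈ L :=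
      mul_mem (by simpa using (mem_inf.1 hy).2) (H49.mem_cj.1 hy.1)
    have hR : s ∈ 𝒩(L ⊓ (cj s L ⊓ cj s⁻¹ L)) := mem_norm_iff_cj.2 (by
      rw [H49.cj_inf, H49.cj_inf, cj_cj, hs3, H49.cj_cj_inv]; ac_rfl)
    obtain ⟨r, hr, h6⟩ := lift_cent1 (hAM h.mem) hR (h.ord ▸ (hc.coprime_mul_left_right.coprime_dvd_left
      (card_dvd_of_le (inf_le_left.trans hL))).symm) (mul_mem hyM (hL hw)) (by
        have e : (y * (s * y * s⁻¹ * (s⁻¹ * y * s)))⁻¹ * (s * (y * (s * y * s⁻¹ * (s⁻¹ * y * s))) * s⁻¹)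
            = ⁅(s * y * s⁻¹ * (s⁻¹ * y * s))⁻¹, y⁻¹⁆ := by
          have e1 : s * (y * (s * y * s⁻¹ * (s⁻¹ * y * s))) * s⁻¹ =
              s * y * s⁻¹ * (s * s * y * (s * s)⁻¹) * y := by group
          rw [e1, hs3, commutatorElement_def]; group
        rw [e]
        exact ⟨commutator_le_left_of_norm hn (commutator_mem_commutator (inv_mem hw) (inv_mem hyM)),
          commutator_le_right_of_norm (norm_inf (hn' s h.mem) (hn' _ (inv_mem h.mem)))
            (commutator_mem_commutator (inv_mem (hL hw)) (inv_mem hy))⟩)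
    have h7 := h2 ⟨mul_mem (mul_mem hyM (hL hw)) hr.2, h6⟩
    exact (mul_mem_cancel_right hw).1 ((mul_mem_cancel_right (Subgroup.mem_inf.1 (Subgroup.mem_inf.1 hr).1).1).1 h7)
  have hs := inv_mem h.mem
  refine (commutator_mono (key s (mem_zpowers s) h.s_ne)
    (key s⁻¹ (inv_mem (mem_zpowers s)) (inv_ne_one.2 h.s_ne))).trans
    (H50.commutator_sup_left_le ((sup_le hL (hL' _ hs)).trans hn) le_normalizer
      ((hL' _ h.mem).trans hn) (commutator_le_left_of_norm ((sup_le hL (hL' _ hs)).trans hn))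
      (H50.commutator_sup_right_le ((hL' _ h.mem).trans hn) le_normalizer ((hL' _ hs).trans hn)
        (commutator_le_right_of_norm ((hL' _ h.mem).trans hn)) (le_trans (le_inf
          (commutator_le_left_of_norm ((hL' _ hs).trans (hn' _ h.mem)))
          (commutator_le_right_of_norm ((hL' _ h.mem).trans (hn' _ hs)))) h5)))

omit [FiniteDimensional K U] [Nontrivial U] in
theorem PQ.s3_lin {A M : Subgroup X} {s : X} (h : PQ 2 3 A s) (ρ : X →* End K V)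
    (hρ : Function.Injective ρ) (hM : Group.IsNilpotent M) (hK : (Nat.card M : K) ≠ 0)
    (hAM : A ≤ 𝒩(M)) (hc : (Nat.card M).Coprime (2 * 3)) (hC : M ⊓ 𝒞(A) = ⊥) (hV : NoFix ρ A)
    (h1 : Kill ρ M s 3) : ⁅M, M⁆ = ⊥ := by
  have := Fintype.ofFinite M
  by_contra hne
  obtain ⟨g, hg, hg1⟩ := ne_bot_iff_exists.1 hne
  obtain ⟨U, hU, hU0, hσ, hne'⟩ := exists_irr_ne (ρ.comp M.subtype)
    (by rwa [← Nat.card_eq_fintype_card]) (g := ⟨g, H49.der_le hg⟩) (k := 1) fun e => hg1 (hρ e)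
  have := Submodule.nontrivial_iff_ne_bot.2 hU0
  suffices ⁅M, M⁆ ≤ kerS hU.res from hne' (by rw [map_one, ← coe_mem_kerS]; exact this hg)
  by_cases hA : A ≤ stabS hU.res
  · exact H49.der_le.trans (hσ.le_kerS_of_stab hM hA (h.card ▸ hc.symm) hC)
  have hsM : zpowers s ≤ 𝒩(M) := zpowers_le.2 (hAM h.mem)
  rcases h.cases ρ hσ hK (f := U.subtype) (fun _ _ => rfl) U.injective_subtype hV hAM hA hc with
    hs | ⟨hs, b, hb, hbs, hbS⟩
  · refine (der_le_sup_der (coprime_isProd_comm_cent hsM (h.card_zp ▸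
      hc.coprime_mul_left_right.symm) (.inl inferInstance)) (inf_le_left.trans
      (le_norm_commutator_left _ _))).trans (sup_le ((commutator_mono le_rfl
        (zpowers_le.2 hs)).trans (comm_fixS_le _)) ?_)
    rw [cent_zpowers, H49.commutator_eq_bot_iff.2 (abelian_iff.1 (h.abelian hAM hC))]
    exact bot_le
  obtain ⟨c, h2, h3, h4⟩ := h.op ρ hσ hK (f := U.subtype) (fun _ _ => rfl) U.injective_subtype hV
    hAM hs hb hbs (mem_stabS.1 hbS).2
  have h5 : c = -1 := LinearMap.ext fun v => eq_neg_of_add_eq_zero_left (h4 _ (by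
    rw [map_add, ← End.mul_apply, ← pow_two, h3, add_comm]; rfl))
  have h6 : b ∈ fixS hU.res := ⟨hAM hb, fun g => LinearMap.ext fun v => by
    simpa [h5] using LinearMap.congr_fun (h2 g).symm v⟩
  exact h.der_le hAM hc hC kerS_le (norm_map_subtype _) hb hbs
    ((commutator_mono le_rfl (zpowers_le.2 h6)).trans (comm_fixS_le _))
    (h.cent_le_ker ρ hσ hK (f := U.subtype) (fun _ _ => rfl) U.injective_subtype (hAM h.mem) hs h1)

end Cfsg.Agent.H89
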