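import Cfsg.Agent.H89.PQ2
import Cfsg.Agent.H49.Frob

/-! Non-abelian groups of order `p q` acting without fixed points: the group level. -/

set_option autoImplicit false

namespace Cfsg.Agent.H89

open Module Finset Subgroup
open H49 hiding fixS
open H79 hiding cj rep_inv_apply
open scoped commutatorElement

universe u

variable {G : Type u} [Group G] [Finite G] {p q : ℕ} {M A : Subgroup G} {s : G}

theorem sum_eq_zero_of_sec {F V : Type*} [Field F] [AddCommGroup V] [Module F V]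
    {U W : Subgroup G} {ρ : G →* End F V} {e : G → V} (h : SecRep (MonoidHom.id G) U W ρ e)
    [Fintype A] (hW : A ≤ 𝒩(W)) (hc : (Nat.card A).Coprime (Nat.card W))
    (hs : Group.IsSolvable A) (hC : U ⊓ 𝒞(A) = ⊥) : ∑ a : A, ρ a = 0 := LinearMap.ext fun v => by
  obtain ⟨u, hu, e1⟩ := h.surj (∑ a : A, ρ a v)
  have h1 := sup_le_vstab_sum ρ (B := A) (C := ⊥) (.inl bot_le) (v := v) bot_le
  rw [sup_bot_eq, ← e1] at h1
  obtain ⟨w, hw, h2⟩ := coprime_lift_cent (fun a _ => h.norm a) hW hc (.inl hs) (inv_mem hu)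
    fun a ha => by
      have := W.inv_mem ((h.fix_iff a hu).1 (h1 ha))
      convert this using 1
      simp only [commutatorElement_def, MonoidHom.id_apply]; group
  have h3 := mem_bot.1 (hC.le ⟨U.mul_mem (U.inv_mem hu) hw.2, h2⟩)
  rw [LinearMap.sum_apply, ← e1, inv_mul_eq_one.1 h3]
  exact (h.zero _ hw.2).2 hw.1

theorem PQ.cent_nil (h : PQ p q A s) (hs : Group.IsSolvable M) (hAM : A ≤ 𝒩(M))
    (hC : M ⊓ 𝒞(A) = ⊥) : Group.IsNilpotent ↥(M ⊓ 𝒞[s]) := by
  obtain ⟨a, ha, has⟩ := h.exists_not_mem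
  refine frob_nilpotent (R := zpowers a) (solvable_of_le hs inf_le_left) ((zpowers_le.2 ha).trans
    (norm_inf hAM (cent_zpowers s ▸ norm_cent h.norm)))
    (by simpa using fun e : a = 1 => has (e ▸ one_mem _)) (semiregular_of_prime_card
      (by rw [Nat.card_zpowers, h.ordp ha has]; exact h.hp) (le_bot_iff.1 (le_trans ?_ hC.le)))
  rw [inf_assoc, ← cent_zpowers s, ← cent_sup]
  exact inf_le_inf_left _ (cent_anti (h.gen h.mem ha h.s_ne has))

theorem PQ.chief (h : PQ p q A s) (hG : Group.IsSolvable G) [M.Normal]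
    (hM : (Nat.card M).Coprime (p * q)) (hC : M ⊓ 𝒞(A) = ⊥) {U W : Subgroup G}
    (hch : IsChiefFactor U W) (hUM : U ≤ M) :
    ∃ (K : Type) (_ : Field K) (_ : IsAlgClosed K) (Z : Type u) (_ : Group Z) (_ : Finite Z)
      (π : G →* Z) (V : Type u) (_ : AddCommGroup V) (_ : Module K V) (_ : FiniteDimensional K V)
      (ρ : Z →* End K V), Function.Injective ρ ∧ (∀ a, π a = 1 ↔ ∀ u ∈ U, ⁅a, u⁆ ∈ W) ∧
      Group.IsNilpotent (M.map π) ∧ (Nat.card (M.map π) : K) ≠ 0 ∧ A.map π ≤ 𝒩(M.map π) ∧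
      M.map π ⊓ 𝒞(A.map π) = ⊥ ∧ NoFix ρ (A.map π) ∧ Kill ρ (M.map π) (π s) q ∧
      M.map π ⊓ 𝒞[π s] = (M ⊓ 𝒞[s]).map π := by
  have hN : ∀ (N : Subgroup G) [N.Normal] (s : G), s ∈ 𝒩(N) := fun N _ _ =>
    normal_iff_top_le_norm.1 inferInstance trivial
  obtain ⟨r, hr, Z, _, _, π, V, _, _, _, ρ, V₀, _, _, _, ρ₀, e, Ψ, hs, hΨ, h1, hrU, hexp, hπ, hρ,
    h2, h3⟩ := exists_chief_rep hch inferInstance
  have := hch.2.2.1
  have : (M.map π).Normal := Normal.map inferInstance π hπ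
  have hWM := card_dvd_of_le (hch.1.le.trans hUM)
  have hord : (orderOf s).Coprime (Nat.card M) := h.ord ▸ hM.coprime_mul_left_right.symm
  have hn := h.cent_nil (M := M) inferInstance le_normalizer_of_normal hC
  have h4 := map_inf_cent1 π (hN M s) hord
  have hn' : Group.IsNilpotent ↥(M.map π ⊓ 𝒞[π s]) := h4 ▸ nilpotent_map hn π
  have hcop : (Nat.card A).Coprime (Nat.card M) := h.card ▸ hM.symm
  have hr' : (p * q).Coprime r := (hM.coprime_dvd_left (hrU.trans (card_dvd_of_le hUM))).symm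
  have hC' : M.map π ⊓ 𝒞(A.map π) = ⊥ := by
    rw [map_inf_cent π le_normalizer_of_normal hcop (.inl inferInstance), hC, Subgroup.map_bot]
  have hV : NoFix ρ (A.map π) := fun v hv => by
    have := Fintype.ofFinite A
    have h5 := congrArg Ψ (sum_eq_zero_of_sec hs le_normalizer_of_normal
      (hcop.coprime_dvd_right hWM) inferInstance (le_bot_iff.1 ((inf_le_inf_right _ hUM).trans hC.le)))
    rw [map_sum, map_zero] at h5
    have h6 := LinearMap.congr_fun h5 v
    rw [LinearMap.sum_apply, sum_congr rfl fun (a : A) _ => (LinearMap.congr_fun (h1 a).symm v).trans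
      (hv (Subgroup.mem_map_of_mem π a.2)), sum_const, card_univ, ← Nat.card_eq_fintype_card, h.card,
      ← Nat.cast_smul_eq_nsmul (AlgebraicClosure (ZMod r))] at h6
    exact (smul_eq_zero.1 h6).resolve_left (natCast_ne_zero_of_coprime hr')
  have hK : ∀ Q ≤ M.map π, IsPi {r}ᶜ Q → Kill ρ Q (π s) q := fun Q hQ hQr x hx => by
    obtain ⟨y, hy, rfl, hy'⟩ := exists_pi_lift π (π := {r}ᶜ) (h4 ▸ inf_le_inf_right _ hQ hx)
      (hQr.elt hx.1)
    have := congrArg Ψ (hs.norm_kill hexp hUM (hN W s) (N := q) (by rw [← map_pow, h.pow, map_one])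
      (hord.coprime_dvd_right hWM) hn hy hy')
    simpa [h1] using this
  have hM' : (Nat.card (M.map π)).Coprime (p * q) := hM.coprime_dvd_left (card_map_dvd _ _)
  have hnil : Group.IsNilpotent (M.map π) := by
    by_cases h5 : π s = 1
    · rwa [h5, inf_eq_left.2 fun x _ => mem_cent1.2 (by simp)] at hn'
    have h' := h.map π h5
    have hZ : Group.IsSolvable Z := Group.isSolvable_of_surjective hπ
    refine nilpotent_of_sylow_cent hZ fun t l ht hl hlt => ?_
    obtain ⟨P, hP, hAP⟩ := coprime_hall_exists le_normalizer_of_normal (h'.card ▸ hM'.symm)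
      inferInstance inferInstance {l}
    refine ⟨P, hP, ?_⟩
    by_cases htr : t = r
    · rw [htr, piCoreOf_map_eq_bot hr.out h3]; exact cent_symm bot_le
    set O := piCoreOf {t} (M.map π)
    have hO : ∀ B : Subgroup Z, B ≤ 𝒩(O) := fun B => norm_piCoreOf _ le_normalizer_of_normal
    have hOM : O ≤ M.map π := piCoreOf_le _ _
    have hOt : IsPi {t} O := piCoreOf_pi _ _
    have hPt : IsPi {t}ᶜ P := hP.pi.compl_singleton_of_ne hlt
    exact cent_symm (h'.lin ρ hρ ht ((isPi_singleton_iff ht).1 hOt) (natCast_ne_zero_of_coprime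
      ((Nat.coprime_primes ht hr.out).2 htr)) (natCast_ne_zero_of_coprime
      hr'.coprime_mul_right) hAP (hO _) (hO _) (hM'.coprime_dvd_left (card_dvd_of_le hOM))
      (hM'.coprime_dvd_left (card_dvd_of_le hP.le)) ((isPi_compl_singleton_iff_coprime ht).1 hPt)
      (le_bot_iff.1 ((inf_le_inf_right _ hOM).trans hC'.le))
      (le_bot_iff.1 ((inf_le_inf_right _ hP.le).trans hC'.le)) hV
      (hK O hOM (hOt.compl_singleton_of_ne htr)) (nilpotent_cent hn' (inf_le_inf_right _ hOM)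
        (inf_le_inf_right _ hP.le) (hOt.inf_left _) (hPt.inf_left _)))
  have h6 := coprime_fittingOf hr.out h3 (M.map π)
  rw [fittingOf_eq_self hnil] at h6
  exact ⟨_, inferInstance, inferInstance, Z, inferInstance, inferInstance, π, V, inferInstance,
    inferInstance, inferInstance, ρ, hρ, h2, hnil, natCast_ne_zero_of_coprime h6,
    le_normalizer_of_normal, hC', hV, hK _ le_rfl ((isPi_compl_singleton_iff_coprime hr.out).2 h6),
    h4⟩

theorem PQ.lns_two (h : PQ p q A s) (hG : Group.IsSolvable G) [M.Normal]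
    (hM : (Nat.card M).Coprime (p * q)) (hC : M ⊓ 𝒞(A) = ⊥) : H44.lns 2 M = ⊥ := by
  refine H44.nilRes_eq_bot_iff.2 (nilpotent_of_le (fittingOf_nil M) fun g hg =>
    mem_fitting_of_chief hG (H44.lns_le _ _ hg) fun U W hch hU => ?_)
  obtain ⟨K, _, _, Z, _, _, π, V, _, _, _, ρ, -, h2, h3, -⟩ :=
    h.chief hG hM hC hch (hU.trans (fittingOf_le M))
  rw [← H44.nilRes_eq_bot_iff, ← H44.map_nilRes, Subgroup.map_eq_bot_iff] at h3
  exact (h2 g).1 (h3 hg)

theorem PQ.der_nil (h : PQ 2 3 A s) (hG : Group.IsSolvable G) [M.Normal]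
    (hM : (Nat.card M).Coprime (2 * 3)) (hC : M ⊓ 𝒞(A) = ⊥) : Group.IsNilpotent ↥⁅M, M⁆ := by
  refine nilpotent_of_le (fittingOf_nil M) fun g hg =>
    mem_fitting_of_chief hG (H49.der_le hg) fun U W hch hU => ?_
  obtain ⟨K, _, _, Z, _, _, π, V, _, _, _, ρ, hρ, h2, h3, h4, h5, h6, h7, h8, h9⟩ :=
    h.chief hG hM hC hch (hU.trans (fittingOf_le M))
  suffices ⁅M.map π, M.map π⁆ = ⊥ by
    rw [← Subgroup.map_commutator, Subgroup.map_eq_bot_iff] at this
    exact (h2 g).1 (this hg)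
  by_cases hs : π s = 1
  · rw [hs, inf_eq_left.2 fun x _ => mem_cent1.2 (by simp)] at h9
    rw [h9, ← Subgroup.map_commutator, H49.commutator_eq_bot_iff.2 (abelian_iff.1
      (h.abelian le_normalizer_of_normal hC)), Subgroup.map_bot]
  exact (h.map π hs).s3_lin ρ hρ h3 h4 h5 (hM.coprime_dvd_left (card_map_dvd _ _)) h6 h7 h8

theorem exists_pq {A : Type*} [Group A] [Finite A] (hp : p.Prime) (hq : q.Prime) (hlt : p < q)
    (hA : Nat.card A = p * q) (hna : ¬ IsMulCommutative A) : ∃ s : A, PQ p q ⊤ s := by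
  have := Fact.mk hq
  have := Fact.mk hp
  obtain ⟨s, hs⟩ := exists_prime_orderOf_dvd_card' (G := A) q (hA ▸ dvd_mul_left q p)
  have h1 : (zpowers s).index = p := Nat.eq_of_mul_eq_mul_right hq.pos (by
    rw [← hA, ← (zpowers s).index_mul_card, Nat.card_zpowers, hs])
  have hn : (zpowers s).Normal := normal_of_index_eq_minFac_card (by
    rw [h1, hA]
    refine le_antisymm ?_ (Nat.minFac_le_of_dvd hp.two_le (dvd_mul_right p q))
    have h2 := Nat.minFac_prime (n := p * q) (one_lt_mul'' hp.one_lt hq.one_lt).ne'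
    rcases h2.dvd_mul.1 (Nat.minFac_dvd _) with h | h
    · exact ((Nat.prime_dvd_prime_iff_eq h2 hp).1 h).ge
    · exact hlt.le.trans ((Nat.prime_dvd_prime_iff_eq h2 hq).1 h).ge)
  refine ⟨s, hp, hq, hlt.ne, by rw [Subgroup.card_top, hA], trivial, hs, le_normalizer_of_normal,
    fun h => hna ?_⟩
  have : IsCyclic (A ⧸ zpowers s) := isCyclic_of_prime_card (p := p) h1
  exact (QuotientGroup.mk' (zpowers s)).isMulCommutative_of_isCyclic_of_ker_le_center (by
    rw [QuotientGroup.ker_mk', zpowers_le, mem_center_iff]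
    exact fun g => mem_cent1.1 (h (mem_top g)))

theorem PQ.amb {G A : Type*} [Group G] [Finite G] [Group.IsSolvable G] [Group A] [Finite A]
    [MulDistribMulAction A G] {s : A} (h : PQ p q ⊤ s) (hcop : (Nat.card G).Coprime (p * q))
    (hfpf : ∀ g : G, (∀ a : A, a • g = g) → g = 1) : H44.lns 2 (⊤ : Subgroup G) = ⊥ ∧
      (p = 2 → q = 3 → Group.IsNilpotent (_root_.commutator G)) := by
  obtain ⟨Y, _, _, i, j, hi, hj, hn, h1, -, -, h2⟩ := exists_amb (MulDistribMulAction.toMulAut A G)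
  have := h.solv
  have hY := h2 inferInstance (Group.isSolvable_of_surjective (f := (⊤ : Subgroup A).subtype)
    fun a => ⟨⟨a, trivial⟩, rfl⟩)
  have h' := h.map j fun e => h.s_ne (hj (e.trans (map_one j).symm))
  have hC : i.range ⊓ 𝒞((⊤ : Subgroup A).map j) = ⊥ := by
    rw [eq_bot_iff]
    rintro _ ⟨⟨g, rfl⟩, h⟩
    rw [hfpf g fun a => hi ((h1 a g).symm.trans (by
      rw [h _ ⟨a, trivial, rfl⟩, mul_inv_cancel_right])), map_one]
    exact one_mem _
  rw [Nat.card_congr (MonoidHom.ofInjective hi).toEquiv] at hcop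
  refine ⟨lns_top_of_range hi (h'.lns_two hY hcop hC), ?_⟩
  rintro rfl rfl
  rw [← nilpotent_map_iff hi, _root_.commutator_def, Subgroup.map_commutator, ← MonoidHom.range_eq_map]
  exact h'.der_nil hY hcop hC

end Cfsg.Agent.H89
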