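import Cfsg.Agent.H9.TFac

/-! The central level of a symplectic active factor: linearity, the Weyl trick, components. -/

set_option autoImplicit false
set_option linter.unusedSectionVars false
set_option linter.unusedVariables false
set_option linter.unusedSimpArgs false

namespace Cfsg.Agent.H89.Sp2

open scoped MatrixGroups Matrix
open Matrix Cfsg.Geo Cfsg.Agent.H98 Cfsg.Agent.H9

universe u

theorem weyl_id {R : Type*} [Ring R] {N N' u u' j : R} (h1 : N * u = u * N) (h2 : N * u' = u' * N)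
    (h3 : N * j = j * N) (h4 : N' * u = u * N') (h5 : N' * u' = u' * N') (h6 : N' * j = j * N')
    (e1 : N * N = 0) (e2 : N' * N' = 0) (e3 : N * (N' * N) = -N) (e4 : N' * (N * N') = -N')
    (e5 : u * u' = 1) (e6 : u' * u = 1) :
    (1 + u * N) * (1 + u' * N') * (1 + u * N) * (1 + j * N') =
      (1 + u * j * u * N) * ((1 + u * N) * (1 + u' * N') * (1 + u * N)) := by
  have k1 : ∀ z, N * (u * z) = u * (N * z) := fun z => by rw [← mul_assoc, h1, mul_assoc]
  have k2 : ∀ z, N * (u' * z) = u' * (N * z) := fun z => by rw [← mul_assoc, h2, mul_assoc]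
  have k3 : ∀ z, N * (j * z) = j * (N * z) := fun z => by rw [← mul_assoc, h3, mul_assoc]
  have k4 : ∀ z, N' * (u * z) = u * (N' * z) := fun z => by rw [← mul_assoc, h4, mul_assoc]
  have k5 : ∀ z, N' * (u' * z) = u' * (N' * z) := fun z => by rw [← mul_assoc, h5, mul_assoc]
  have k6 : ∀ z, N' * (j * z) = j * (N' * z) := fun z => by rw [← mul_assoc, h6, mul_assoc]
  have l1 : ∀ z, N * (N * z) = 0 := fun z => by rw [← mul_assoc, e1, zero_mul]
  have l2 : ∀ z, N' * (N' * z) = 0 := fun z => by rw [← mul_assoc, e2, zero_mul]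
  have l5 : ∀ z, u * (u' * z) = z := fun z => by rw [← mul_assoc, e5, one_mul]
  have l6 : ∀ z, u' * (u * z) = z := fun z => by rw [← mul_assoc, e6, one_mul]
  simp only [mul_add, add_mul, mul_one, one_mul, mul_assoc, k1, k2, k3, k4, k5, k6, l1, l2, l5, l6,
    e1, e2, e3, e4, mul_zero, add_zero, mul_neg, neg_mul]
  abel

variable {ι β : Type} [Fintype ι] [DecidableEq ι] [Fintype β] [DecidableEq β] {F : Type u} [Field F]
  {f₂ : (β → F) → (β → F) → F}

set_option hygiene false in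
local notation "σ₀" => RingEquiv.refl F
set_option hygiene false in
local notation "SP" => Isom (RingEquiv.refl F) f₂

section geo
variable (C : Cl σ₀ (-1) f₂ SP) (alt : ∀ v, f₂ v v = 0)
include C alt

theorem sp_step {u v : β → F} (h : f₂ u v ≠ 0) : ∃ g ∈ SP, (g : Matrix β β F) *ᵥ u = v := by
  obtain ⟨g, hg, e⟩ := mem_matrixSet.1 (C.tv_sp alt (v - u) (f₂ u v)⁻¹)
  refine ⟨g, hg, ?_⟩
  rw [e, add_mulVec, one_mulVec, smul_mulVec, br_mulVec C.ses, C.ses.sub_right, alt, sub_zero,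
    smul_smul, inv_mul_cancel₀ h, one_smul, add_sub_cancel]

theorem sp_trans {u v : β → F} (hu : u ≠ 0) (hv : v ≠ 0) :
    ∃ g ∈ SP, (g : Matrix β β F) *ᵥ u = v := by
  obtain ⟨z, h1, h2⟩ := exists_ne_two C.ses hu hv
  obtain ⟨g, hg, e⟩ := sp_step C alt (u := u) (v := z) (fun h => h1 (C.ses.eq_zero_comm.1 h))
  obtain ⟨g', hg', e'⟩ := sp_step C alt h2
  exact ⟨g' * g, mul_mem hg' hg, by rw [Units.val_mul, ← mulVec_mulVec, e, e']⟩

theorem eq_zero_two (hk : Fintype.card β = 2) {x y v : β → F} (H : HP f₂ x y) (h1 : f₂ x v = 0)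
    (h2 : f₂ y v = 0) : v = 0 := by
  by_contra h0
  have := PasA.three_le_card C H.xx (H.ne C.ses) h1 fun a ha => h0 (by
    rw [ha, C.ses.smul_right, H.yx C.ses] at h2
    have : a = 0 := by simpa using h2
    rw [ha, this, zero_smul])
  omega

theorem one_eq_two (hk : Fintype.card β = 2) {x y : β → F} (H : HP f₂ x y) :
    br f₂ x y - br f₂ y x = 1 :=
  matrix_ext_mulVec fun w => by
    obtain ⟨h1, h2⟩ := perp_part C.ses H w
    have := eq_zero_two C alt hk H (C.ses.eq_zero_comm.1 h1) (C.ses.eq_zero_comm.1 h2)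
    rw [sub_mulVec, br_mulVec C.ses, br_mulVec C.ses, one_mulVec, eq_comm, ← sub_eq_zero, ← this]
    module

variable {φ : Matrix β β F →ₐ[F] Matrix ι ι F} {D : Submodule F (Matrix ι ι F)}
  (hD : ∀ g ∈ SP, ∀ z ∈ D, cj (gφ φ g) z ∈ D)
include hD

theorem mv {c : Matrix ι ι F} (hc : Cm φ c) {u : β → F} (hu : u ≠ 0)
    (h : c * φ (br f₂ u u) ∈ D) (v : β → F) : c * φ (br f₂ v v) ∈ D := by
  by_cases hv : v = 0
  · rw [hv, br_zero_left, map_zero, mul_zero]; exact D.zero_mem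
  obtain ⟨g, hg, e⟩ := sp_trans C alt hu hv
  have := hD g hg _ h
  rwa [map_mul, hc.cj_gφ, cj_gφ, cj_br C.ses hg, e] at this

theorem sand_mem (h2 : (2 : F) ≠ 0) {z : Matrix ι ι F} (hz : z ∈ D) (u : β → F) :
    φ (br f₂ u u) * z * φ (br f₂ u u) ∈ D := by
  obtain ⟨T, hT, e⟩ := PasA.op_sand (G := SP) (n := br f₂ u u)
    (by rw [br_mul_br C.ses, alt, zero_smul]) one_ne_zero (neg_ne_zero.2 one_ne_zero)
    (fun h => h2 (by linear_combination h)) (C.tv_sp alt u 1) (C.tv_sp alt u (-1))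
  obtain ⟨w, hw, e'⟩ := exists_tens hT hD hz
  rwa [ext_cp (φ := φ) (z := w) (w := φ (br f₂ u u) * z * φ (br f₂ u u)) fun ℓ => by
    rw [e', e, cp_mul_phi, cp_phi_mul]] at hw

theorem q_mem (h2 : (2 : F) ≠ 0) {z : Matrix ι ι F} (hz : z ∈ D) (u v : β → F) :
    cf φ (dl f₂ u) z u * φ (br f₂ v v) ∈ D := by
  by_cases hu : u = 0
  · rw [hu, cf_zero_right, zero_mul]; exact D.zero_mem
  have := sand_mem C alt hD h2 hz u
  rw [br, sandwich] at this
  exact mv C alt hD (cf_cm _ _ _) hu this v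

end geo

variable (φ : Matrix β β F →ₐ[F] Matrix ι ι F) (f₂) in
/-- The partial trace in dimension two. -/
def tr2 (x y : β → F) (z : Matrix ι ι F) : Matrix ι ι F :=
  cf φ (dl f₂ y) z x - cf φ (dl f₂ x) z y

section dec
variable (C : Cl σ₀ (-1) f₂ SP) (alt : ∀ v, f₂ v v = 0) (hk : Fintype.card β = 2) {x y : β → F}
  (H : HP f₂ x y) {φ : Matrix β β F →ₐ[F] Matrix ι ι F}
include C alt hk H

local notation "qq" z:max u:max => cf φ (dl f₂ u) z u
local notation "NN" u:max => φ (br f₂ u u)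

theorem decomp (z : Matrix ι ι F) : (2 : F) • z = tr2 f₂ φ x y z +
    ((qq z (x + y)) * NN (x + y) - (qq z (x + y)) * NN x - (qq z (x + y)) * NN y
      - (qq z x) * NN (x + y) + (qq z x) * NN x - (qq z x) * NN y
      - (qq z y) * NN (x + y) - (qq z y) * NN x + (qq z y) * NN y) := by
  have e := one_eq_two C alt hk H
  have e1 : φ (br f₂ x y) - φ (br f₂ y x) = 1 := by rw [← map_sub, e, map_one]
  have s : ∀ a b c d, φ (br f₂ a b) * z * φ (br f₂ c d) = cf φ (dl f₂ b) z c * φ (br f₂ a d) :=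
    fun a b c d => sandwich _ _ _ _ _
  have k : z = (φ (br f₂ x y) - φ (br f₂ y x)) * z * (φ (br f₂ x y) - φ (br f₂ y x)) := by
    rw [e1, one_mul, mul_one]
  have k2 : tr2 f₂ φ x y z = tr2 f₂ φ x y z * (φ (br f₂ x y) - φ (br f₂ y x)) := by rw [e1, mul_one]
  rw [k2]
  conv_lhs => rw [k]
  simp only [tr2, sub_mul, mul_sub, s, dl_add C.ses, cf_add_left, cf_add_right, br_add_left,
    br_add_right C.ses, map_add, add_mul, mul_add, two_smul]
  abel

theorem mem_of_dec (h2 : (2 : F) ≠ 0) {D : Submodule F (Matrix ι ι F)} {z : Matrix ι ι F}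
    (h0 : tr2 f₂ φ x y z ∈ D) (h1 : ∀ u v, (qq z u) * NN v ∈ D) : z ∈ D := by
  rw [← D.smul_mem_iff h2, decomp C alt hk H (φ := φ) z]
  refine add_mem h0 ?_
  repeat first | exact h1 _ _ | refine add_mem ?_ ?_ | refine sub_mem ?_ ?_

theorem tr_mem (h2 : (2 : F) ≠ 0) {D : Submodule F (Matrix ι ι F)}
    (hD : ∀ g ∈ SP, ∀ z ∈ D, cj (gφ φ g) z ∈ D) {z : Matrix ι ι F} (hz : z ∈ D) :
    tr2 f₂ φ x y z ∈ D := by
  have h1 := q_mem C alt hD h2 hz
  rw [← sub_eq_iff_eq_add.2 (decomp C alt hk H (φ := φ) z)]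
  refine sub_mem (D.smul_mem _ hz) ?_
  repeat first | exact h1 _ _ | refine add_mem ?_ ?_ | refine sub_mem ?_ ?_

omit C alt hk H in
theorem tr_cm (z : Matrix ι ι F) : Cm φ (tr2 f₂ φ x y z) := (cf_cm _ _ _).sub (cf_cm _ _ _)

theorem exists_q (h2 : (2 : F) ≠ 0) {z : Matrix ι ι F} (hz : ¬ Cm φ z) : ∃ u, (qq z u) ≠ 0 := by
  by_contra h
  push Not at h
  have := decomp C alt hk H (φ := φ) z
  simp only [h, zero_mul, sub_self, add_zero] at this
  have k := (tr_cm (φ := φ) (f₂ := f₂) (x := x) (y := y) z).smul (2 : F)⁻¹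
  rw [← this, inv_smul_smul₀ h2] at k
  exact hz k

omit alt hk in
theorem tr_xy {c : Matrix ι ι F} (hc : Cm φ c) : tr2 f₂ φ x y (c * φ (br f₂ x y)) = c := by
  simp only [tr2, hc.cf_mul_phi, br_mulVec C.ses, dotProduct_smul, dl_dot C.ses, H.xy, H.yy, H.xx]
  simp [H.xy, C.ses.zero_left]

omit alt hk in
theorem tr_yx {c : Matrix ι ι F} (hc : Cm φ c) : tr2 f₂ φ x y (c * φ (br f₂ y x)) = -c := by
  simp only [tr2, hc.cf_mul_phi, br_mulVec C.ses, dotProduct_smul, dl_dot C.ses, H.yx C.ses, H.yy,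
    H.xx]
  simp [H.yx C.ses, C.ses.zero_left, C.ses.neg_left]

omit C alt hk H in
theorem tr_add (z w : Matrix ι ι F) :
    tr2 f₂ φ x y (z + w) = tr2 f₂ φ x y z + tr2 f₂ φ x y w := by
  simp only [tr2, cf_add]; abel

end dec

variable {φ : Matrix β β F →ₐ[F] Matrix ι ι F} {M : Subgroup (GL ι F)} {ε : F}
  {f : (ι → F) → (ι → F) → F} (A : Amb φ M SP σ₀ ε f (-1) f₂) (alt : ∀ v, f₂ v v = 0)

local notation:max z "†" => adj (RingEquiv.refl F) f z

section
include A alt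

theorem jj_all {x : β → F} (hx : x ≠ 0) {j : Matrix ι ι F} (h : JJ φ M f₂ x j) (u : β → F) :
    JJ φ M f₂ u j := by
  by_cases hu : u = 0
  · exact ⟨h.1, by rw [hu, br_zero_left, map_zero, mul_zero, add_zero]; exact ms_one⟩
  obtain ⟨g, hg, e⟩ := sp_trans A.C alt hx hu
  simpa using A.jj_move hg (c := 1) (by rw [e, one_smul]) h

theorem jj_sq {j : Matrix ι ι F} (h : ∀ u, JJ φ M f₂ u j) (c : F) (u : β → F) :
    JJ φ M f₂ u ((c * c) • j) := by
  refine ⟨(h u).1.smul _, ?_⟩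
  have := (h (c • u)).2
  rwa [br_smul_left, br_smul_right A.C.ses, smul_smul, map_smul, mul_smul_comm,
    ← smul_mul_assoc] at this

end

/-- The central level as a subspace. -/
def JS (h2 : (2 : F) ≠ 0) : Submodule F (Matrix ι ι F) where
  carrier := {j | ∀ u, JJ φ M f₂ u j}
  add_mem' := fun h h' u => A.jj_add (alt u) (h u) (h' u)
  zero_mem' := fun u => A.jj_zero
  smul_mem' := fun a j h u => by
    have := A.jj_add (alt u) (jj_sq A alt h ((a + 1) / 2) u)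
      (A.jj_neg (alt u) (jj_sq A alt h ((a - 1) / 2) u))
    rwa [← neg_smul, ← add_smul, show (a + 1) / 2 * ((a + 1) / 2) + -((a - 1) / 2 * ((a - 1) / 2)) = a
      by field_simp; ring] at this

variable {A alt} {h2 : (2 : F) ≠ 0}

theorem JS.cm {j : Matrix ι ι F} (h : j ∈ JS A alt h2) : Cm φ j := (h 0).1

theorem JS.of {x : β → F} (hx : x ≠ 0) {j : Matrix ι ι F} (h : JJ φ M f₂ x j) : j ∈ JS A alt h2 :=
  jj_all A alt hx h

theorem JS.one : (1 : Matrix ι ι F) ∈ JS A alt h2 := fun u => by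
  simpa using A.jj_smul_one (alt u) (κ := 1) (by simp)

theorem JS.sc {c : Matrix ι ι F} (h : Sc c) : c ∈ JS A alt h2 := by
  obtain ⟨a, rfl⟩ := h; exact Submodule.smul_mem _ a JS.one

theorem JS.adj [Nonempty ι] {j : Matrix ι ι F} (h : j ∈ JS A alt h2) : j† = j := by
  obtain ⟨x, h0, hx⟩ := A.C.ex
  simpa using A.jj_adj hx h0 (h x)

theorem JS.cj {g : GL ι F} (hg : g ∈ M) (hc : Cm φ g) {j : Matrix ι ι F} (h : j ∈ JS A alt h2) :
    cj g j ∈ JS A alt h2 := fun u => by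
  simpa using A.jj_cj hg (φ' := φ) (x' := u) (c := 1) (by rw [one_smul, cj_eq_iff, hc]) (h u)
    ((h u).1.cj (mem_KB_of_cm hc))

theorem JS.weyl {u u' j : Matrix ι ι F} (hu : u ∈ JS A alt h2) (hu' : u' ∈ JS A alt h2)
    (e : u * u' = 1) (e' : u' * u = 1) (hj : j ∈ JS A alt h2) : u * j * u ∈ JS A alt h2 := by
  obtain ⟨x, y, H⟩ := A.C.exists_hp
  have hf := A.C.ses
  refine JS.of (H.ne hf) ⟨((JS.cm hu).mul (JS.cm hj)).mul (JS.cm hu), ?_⟩
  have w := ms_mul (ms_mul (hu x).2 (hu' y).2) (hu x).2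
  refine ms_of_mul_right w ?_
  rw [← weyl_id (JS.cm hu _) (JS.cm hu' _) (JS.cm hj _) (JS.cm hu _) (JS.cm hu' _) (JS.cm hj _)
    ?_ ?_ ?_ ?_ e e']
  · exact ms_mul w (hj y).2
  all_goals
    simp only [← map_mul, br_mul_br hf, mul_smul_comm, H.xx, H.yy, H.xy, H.yx hf, one_smul,
      zero_smul, map_zero, neg_smul, map_neg, mul_neg]

theorem JS.uu {γ j : Matrix ι ι F} (hγ : γ ∈ JS A alt h2) (e : γ * γ = 0) (hj : j ∈ JS A alt h2) :
    γ * j + j * γ ∈ JS A alt h2 := by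
  have e1 : (1 + γ) * (1 - γ) = 1 := by noncomm_ring [e]
  have e2 : (1 - γ) * (1 + γ) = 1 := by noncomm_ring [e]
  have h1 := add_mem JS.one hγ
  have h3 := sub_mem JS.one hγ
  have := sub_mem (JS.weyl h1 h3 e1 e2 hj) (JS.weyl h3 h1 e2 e1 hj)
  rw [← Submodule.smul_mem_iff _ h2]
  convert this using 1
  rw [two_smul]
  noncomm_ring

variable (A alt h2) in
theorem JS.nonsc [Nonempty ι] (hk : Fintype.card β = 2) {x y : β → F} (H : HP f₂ x y)
    (h : ¬ Loc φ M x) : ∃ j ∈ JS A alt h2, ¬ Sc j := by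
  rcases A.nc H h with ⟨ρ, hρ, w, -, hn⟩ | ⟨j, h1, hn⟩
  · have := (H.ad A.C.ses).rho_mul hρ
    rw [pr, ← one_eq_two A.C alt hk H, ← br, neg_smul, one_smul, sub_neg_eq_add, sub_add_cancel,
      sub_self, map_zero, mul_zero] at this
    rw [← this, cf_zero] at hn
    exact (hn Sc.zero).elim
  · exact ⟨j, JS.of (H.ne A.C.ses) h1, hn⟩

theorem JS.full (hk : Fintype.card β = 2) {x y : β → F} (H : HP f₂ x y)
    (h : ∀ c, Cm φ c → c + c† ∈ JS A alt h2) :
    FullQ σ₀ f M (φ (br f₂ x y)) ∧ FullQ σ₀ f M (φ (br f₂ x y))† := by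
  have k : ∀ x y, HP f₂ x y → FullQ σ₀ f M (φ (br f₂ x y)) := fun x y H =>
    A.fullQ_of H (fun c hc => ⟨hc, fun v h1 h3 => by
      rw [eq_zero_two A.C alt hk H h1 h3, br_zero_right A.C.ses, map_zero, mul_zero]
      exact zero_mem _⟩) fun c hc => by simpa using h c hc x
  exact ⟨k x y H, by rw [A.adj_eq]; exact k _ _ (H.symm A.C.ses)⟩

include A in
theorem adj_cf [Nonempty ι] (z : Matrix ι ι F) (u v : β → F) :
    (cf φ (dl f₂ v) z u)† = -cf φ (dl f₂ u) z† v := by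
  obtain ⟨x, h0, -⟩ := A.C.ex
  have s : ∀ z a b c d, φ (br f₂ a b) * z * φ (br f₂ c d) = cf φ (dl f₂ b) z c * φ (br f₂ a d) :=
    fun z a b c d => sandwich _ _ _ _ _
  have hc := A.cm_adj (cf_cm (φ := φ) (dl f₂ v) z u)
  have e := congrArg (fun w => w†) (s z x v u x)
  simp only [A.hf.adj_mul, A.adj_br, neg_smul, one_smul, neg_mul, mul_neg, neg_neg] at e
  rw [← mul_assoc, s, hc] at e
  rw [eq_neg_iff_add_eq_zero]
  exact (hc.add (cf_cm _ _ _)).eq_zero_of_mul (br_ne_zero A.C.ses h0 h0) (by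
    rw [add_mul, e, add_neg_cancel])

include A in
theorem adj_tr [Nonempty ι] (z : Matrix ι ι F) (x y : β → F) :
    (tr2 f₂ φ x y z)† = tr2 f₂ φ x y z† := by
  rw [tr2, tr2, A.hf.adj_sub, adj_cf (A := A), adj_cf (A := A)]; abel

end Cfsg.Agent.H89.Sp2
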