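import Cfsg.Agent.H89.Sp2a

/-! The central level of a symplectic factor of dimension two in a system of factors. -/

set_option autoImplicit false
set_option linter.unusedSectionVars false
set_option linter.unusedVariables false
set_option linter.unusedSimpArgs false

namespace Cfsg.Agent.H89.Sp2

open scoped MatrixGroups Matrix
open Matrix Cfsg.Geo Cfsg.Agent.H98 Cfsg.Agent.H9

universe u

variable {ι β τ : Type} [Fintype ι] [DecidableEq ι] [Fintype β] [DecidableEq β] [Fintype τ]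
  [DecidableEq τ] {F : Type u} [Field F] {f₂ : (β → F) → (β → F) → F} [Nonempty ι]

set_option hygiene false in
local notation "σ₀" => RingEquiv.refl F
set_option hygiene false in
local notation "SP" => Isom (RingEquiv.refl F) f₂

variable {φ : τ → Matrix β β F →ₐ[F] Matrix ι ι F} {M : Subgroup (GL ι F)} {ε : F}
  {f : (ι → F) → (ι → F) → F} (S : Sys φ) (A : ∀ j, Amb (φ j) M SP σ₀ ε f (-1) f₂)
  (alt : ∀ v, f₂ v v = 0) (h2 : (2 : F) ≠ 0) (hk : Fintype.card β = 2) {x y : β → F}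
  (H : HP f₂ x y) (i : τ)

local notation:max z "†" => adj (RingEquiv.refl F) f z
set_option hygiene false in
local notation "𝒥" => JS (A i) alt h2

theorem skew_sc (hf : IsSesq σ₀ ε f) (h2 : (2 : F) ≠ 0) {c : Matrix ι ι F} (h : Sc c)
    (e : c† = -c) : c = 0 := by
  obtain ⟨a, rfl⟩ := h
  rw [hf.adj_smul, hf.adj_one, eq_neg_iff_add_eq_zero] at e
  exact (smul_eq_zero.1 (show (2 : F) • a • (1 : Matrix ι ι F) = 0 by
    rw [two_smul]; exact e)).resolve_left h2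

include S

theorem inv_J {p : τ} (hp : p ≠ i) : ∀ g ∈ SP, ∀ z ∈ 𝒥, cj (gφ (φ p) g) z ∈ 𝒥 :=
  fun g hg z hz => JS.cj ((A p).sub g hg) (S.cm i p hp.symm _) hz

include hk H in
theorem exists_two (T : Finset τ) (hi : i ∉ T) : ∀ z ∈ 𝒥, (∀ l ∉ T, Cm (φ l) z) → ¬ Sc z →
    ∃ p l, p ≠ l ∧ p ≠ i ∧ l ≠ i ∧ φ p (br f₂ x x) * φ l (br f₂ x x) ∈ 𝒥 := by
  induction T using Finset.strongInduction with
  | H T ih =>
  intro z hz hT hn
  have C := (A i).C
  have hf := C.ses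
  obtain ⟨p, hp⟩ : ∃ p, ¬ Cm (φ p) z := not_forall.1 fun hc => hn (S.sc hc)
  have hpT : p ∈ T := by_contra fun h => hp (hT p h)
  have hpi : p ≠ i := fun h => hi (h ▸ hpT)
  obtain ⟨u, hu⟩ := exists_q C alt hk H h2 hp
  have c1 := q_mem C alt (inv_J S A alt h2 i hpi) h2 hz u
  have c2 := adj_cf (A := A p) z u u
  rw [JS.adj hz] at c2
  have c3 : ∀ r ∉ T.erase p, Cm (φ r) (cf (φ p) (dl f₂ u) z u) := fun r hr => by
    by_cases h : r = p
    · rw [h]; exact cf_cm _ _ _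
    · exact (hT r fun h' => hr (Finset.mem_erase.2 ⟨h, h'⟩)).cm_cf (S.cm r p h) _ _
  generalize cf (φ p) (dl f₂ u) z u = c at hu c1 c2 c3
  obtain ⟨l, hl⟩ : ∃ l, ¬ Cm (φ l) c :=
    not_forall.1 fun hc => hu (skew_sc (A i).hf h2 (S.sc hc) c2)
  obtain ⟨hlp, hlT⟩ : l ≠ p ∧ l ∈ T := Finset.mem_erase.1 (by_contra fun h => hl (c3 l h))
  have hli : l ≠ i := fun h => hi (h ▸ hlT)
  obtain ⟨u', hu'⟩ := exists_q C alt hk H h2 hl
  let D : Submodule F (Matrix ι ι F) :=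
    { carrier := {q | (∀ r ∉ (T.erase p).erase l, Cm (φ r) q) ∧
        ∀ v w, q * φ p (br f₂ w w) * φ l (br f₂ v v) ∈ 𝒥}
      add_mem' := fun h h' => ⟨fun r hr => (h.1 r hr).add (h'.1 r hr), fun v w => by
        rw [add_mul, add_mul]; exact add_mem (h.2 v w) (h'.2 v w)⟩
      zero_mem' := ⟨fun r hr => Cm.zero, fun v w => by rw [zero_mul, zero_mul]; exact zero_mem _⟩
      smul_mem' := fun a q h => ⟨fun r hr => (h.1 r hr).smul a, fun v w => by
        rw [smul_mul_assoc, smul_mul_assoc]; exact Submodule.smul_mem _ a (h.2 v w)⟩ }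
  have hD : ∀ r ∈ (T.erase p).erase l, ∀ g ∈ SP, ∀ q ∈ D, cj (gφ (φ r) g) q ∈ D := by
    intro r hr g hg q hq
    simp only [Finset.mem_erase] at hr
    refine ⟨fun r' hr' => ?_, fun v w => ?_⟩
    · have h : r' ≠ r := fun h => hr' (by simp [h, hr])
      rw [cj_apply]
      exact ((S.cm r' r h _).mul (hq.1 r' hr')).mul (S.cm r' r h _)
    · have := inv_J S A alt h2 i (p := r) (fun h => hi (h ▸ hr.2.2)) g hg _ (hq.2 v w)
      rwa [map_mul, map_mul, (S.cm r p hr.2.1 _).cj_gφ, (S.cm r l hr.1 _).cj_gφ] at this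
  have hq : cf (φ l) (dl f₂ u') c u' ∈ D := by
    refine ⟨fun r hr => ?_, fun v w => ?_⟩
    · by_cases h : r = l
      · rw [h]; exact cf_cm _ _ _
      · exact (c3 r fun h' => hr (Finset.mem_erase.2 ⟨h, h'⟩)).cm_cf (S.cm r l h) _ _
    · have := q_mem C alt (inv_J S A alt h2 i hli) h2 (c1 w) u' v
      rwa [(S.cm l p hlp _).mul_cf] at this
  generalize cf (φ l) (dl f₂ u') c u' = q at hu' hq
  by_cases hs : Sc q
  · obtain ⟨a, rfl⟩ := hs
    have ha : a ≠ 0 := by rintro rfl; exact hu' (zero_smul _ _)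
    have := hq.2 x x
    rw [smul_mul_assoc, one_mul, smul_mul_assoc, Submodule.smul_mem_iff _ ha] at this
    exact ⟨p, l, hlp.symm, hpi, hli, this⟩
  obtain ⟨r, hr⟩ : ∃ r, ¬ Cm (φ r) q := not_forall.1 fun hc => hs (S.sc hc)
  have hrT : r ∈ (T.erase p).erase l := by_contra fun h => hr (hq.1 r h)
  obtain ⟨u'', hu''⟩ := exists_q C alt hk H h2 hr
  have d1 := q_mem C alt (hD r hrT) h2 hq u'' x
  have d2 : cf (φ r) (dl f₂ u'') q u'' * φ r (br f₂ x x) ≠ 0 := fun h =>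
    hu'' ((cf_cm _ _ _).eq_zero_of_mul (br_ne_zero hf (H.ne hf) (H.ne hf)) h)
  have d3 : cf (φ r) (dl f₂ u'') q u'' * φ r (br f₂ x x) *
      (cf (φ r) (dl f₂ u'') q u'' * φ r (br f₂ x x)) = 0 := by
    rw [mul_assoc, (cf_cm _ _ _).left, ← map_mul, br_mul_br hf, H.xx]; simp
  generalize cf (φ r) (dl f₂ u'') q u'' * φ r (br f₂ x x) = d at d1 d2 d3
  obtain ⟨d', e1, e2⟩ := S.mul_ne (G := fun _ => SP) (T := (T.erase p).erase l) (fun j _ => C.irr)
    (D := D) (fun z hz => hz.1) hD d1 d2 d2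
  have p1 : ∀ {q}, q ∈ D → Cm (φ p) q := fun h => h.1 p (by simp)
  have p2 : ∀ {q}, q ∈ D → Cm (φ l) q := fun h => h.1 l (by simp)
  have mu : ∀ {q q'}, q' ∈ D → ∀ a a' b b', q * φ p a * φ l b * (q' * φ p a' * φ l b') =
      q * q' * φ l (b * b') * φ p (a * a') := fun {q q'} h a a' b b' => by
    simp only [mul_assoc, map_mul, (p1 h).left, (p2 h).left]
    rw [(S.cm l p hlp a').left, ← mul_assoc (φ p a), ← map_mul, ← map_mul, S.cm p l hlp.symm]
    simp only [map_mul, mul_assoc]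
  have k := JS.uu (d1.2 x x) (by rw [mu d1, d3, zero_mul, zero_mul]) (e1.2 y y)
  rw [mu e1, mu d1] at k
  simp only [br_mul_br hf, H.xy, H.yx hf, one_smul, neg_smul, map_neg, mul_neg, neg_mul,
    neg_neg] at k
  have k2 := tr_mem C alt hk H h2 (inv_J S A alt h2 i hpi) k
  have cm : ∀ {q q'}, q ∈ D → q' ∈ D → ∀ b, ∀ r ∉ T.erase p, Cm (φ r) (q * q' * φ l b) :=
    fun h h' b r hr => ((h.1 r fun h => hr (Finset.mem_of_mem_erase h)).mul
      (h'.1 r fun h => hr (Finset.mem_of_mem_erase h))).mul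
        (S.cm r l (fun h => hr (h ▸ Finset.mem_erase.2 ⟨hlp, hlT⟩)) b)
  rw [tr_add, tr_xy C H (cm d1 e1 _ p (by simp)), tr_yx C H (cm e1 d1 _ p (by simp))] at k2
  refine ih _ (Finset.erase_ssubset hpT) (fun h => hi (Finset.mem_of_mem_erase h)) _ k2
    (fun r hr => (cm d1 e1 _ r hr).add (cm e1 d1 _ r hr).neg) ?_
  rintro ⟨a, ha⟩
  have k3 := congrArg (· * φ l (br f₂ x y)) ha
  simp only [add_mul, neg_mul, mul_assoc _ (φ l _), ← map_mul, br_mul_br hf, H.xy, H.xx, one_smul,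
    zero_smul, map_zero, mul_zero, neg_zero, add_zero] at k3
  have k4 := sub_eq_zero.1 ((((p2 d1).mul (p2 e1)).sub (Cm.one.smul a)).eq_zero_of_mul
    (br_ne_zero hf (H.ne hf) (H.ne' hf)) (by rw [sub_mul, k3, sub_self]))
  have k5 : a • d = 0 := by
    rw [← mul_one d, ← mul_smul_comm, ← k4, ← mul_assoc, d3, zero_mul]
  rw [(smul_eq_zero.1 k5).resolve_right d2, zero_smul] at k4
  exact e2 k4

theorem alt_move (hA : Alt φ M) (hx : x ≠ 0) {a b c : τ} (hab : a ≠ b) (ha : a ≠ i) (hb : b ≠ i)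
    (hac : a ≠ c) (hc : c ≠ i) (h : φ a (br f₂ x x) * φ b (br f₂ x x) ∈ 𝒥) :
    φ a (br f₂ x x) * φ c (br f₂ x x) ∈ 𝒥 := by
  by_cases hbc : b = c
  · rwa [← hbc]
  obtain ⟨g, hg, e⟩ := hA (show Equiv.swap b c * Equiv.swap i a ∈ _ by
    simp [Equiv.Perm.mem_alternatingGroup, Equiv.Perm.sign_swap, hbc, ha.symm])
  refine JS.of hx ⟨(S.cm i a ha.symm _).mul (S.cm i c hc.symm _), ?_⟩
  have := ms_cj (h x).2 hg
  simp only [map_add, map_one, map_mul, e, Equiv.Perm.coe_mul, Function.comp, Equiv.swap_apply_left,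
    Equiv.swap_apply_right, Equiv.swap_apply_of_ne_of_ne hb hab.symm,
    Equiv.swap_apply_of_ne_of_ne hb.symm hc.symm, Equiv.swap_apply_of_ne_of_ne hab hac] at this
  rwa [mul_assoc, (S.cm i c hc.symm _).mul (S.cm i a ha.symm _), S.cm c a hac.symm] at this

theorem all_two (hA : Alt φ M) (hx : x ≠ 0) {a b : τ} (hab : a ≠ b) (ha : a ≠ i) (hb : b ≠ i)
    (h : φ a (br f₂ x x) * φ b (br f₂ x x) ∈ 𝒥) {c d : τ} (hcd : c ≠ d) (hc : c ≠ i) (hd : d ≠ i)
    (u v : β → F) : φ c (br f₂ u u) * φ d (br f₂ v v) ∈ 𝒥 := by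
  have k : φ c (br f₂ x x) * φ d (br f₂ x x) ∈ 𝒥 := by
    by_cases hac : a = c
    · subst hac; exact alt_move S A alt h2 i hA hx hab ha hb hcd hd h
    · have := alt_move S A alt h2 i hA hx hab ha hb hac hc h
      rw [S.cm a c hac] at this
      exact alt_move S A alt h2 i hA hx (Ne.symm hac) hc ha hcd hd this
  have k1 := mv (A i).C alt (inv_J S A alt h2 i hd) (S.cm d c hcd.symm _) hx k v
  rw [S.cm c d hcd] at k1 ⊢
  exact mv (A i).C alt (inv_J S A alt h2 i hc) (S.cm c d hcd _) hx k1 u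

include hk H in
theorem all_J (hN : ∀ c d, c ≠ d → c ≠ i → d ≠ i → ∀ u v, φ c (br f₂ u u) * φ d (br f₂ v v) ∈ 𝒥)
    (T : Finset τ) (hi : i ∉ T) : (∀ z, (∀ l ∉ T, Cm (φ l) z) → z† = z → z ∈ 𝒥) ∧
      ∀ z, (∀ l ∉ T, Cm (φ l) z) → z† = -z → ∀ p ∉ T, p ≠ i → ∀ v, z * φ p (br f₂ v v) ∈ 𝒥 := by
  have C := (A i).C
  induction T using Finset.induction_on with
  | empty =>
    refine ⟨fun z hz _ => JS.sc (S.sc fun l => hz l (by simp)), fun z hz e p _ _ v => ?_⟩
    rw [skew_sc (A i).hf h2 (S.sc fun l => hz l (by simp)) e, zero_mul]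
    exact zero_mem _
  | insert j T hj ih =>
    obtain ⟨ih1, ih2⟩ := ih fun h => hi (Finset.mem_insert_of_mem h)
    have hji : j ≠ i := fun h => hi (h ▸ Finset.mem_insert_self _ _)
    have out : ∀ {z}, (∀ l ∉ insert j T, Cm (φ l) z) → ∀ χ u, ∀ l ∉ T, Cm (φ l) (cf (φ j) χ z u) :=
      fun h χ u l hl => by
        by_cases hlj : l = j
        · rw [hlj]; exact cf_cm _ _ _
        · exact (h l (by simp [hl, hlj])).cm_cf (S.cm l j hlj) _ _
    refine ⟨fun z hz e => mem_of_dec C alt hk H (φ := φ j) h2 (ih1 _ (fun l hl =>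
      (out hz _ _ l hl).sub (out hz _ _ l hl)) (by rw [adj_tr (A := A j), e])) fun u v =>
        ih2 _ (out hz _ _) (by rw [adj_cf (A := A j), e]) j hj hji v, fun z hz e p hp hpi v => ?_⟩
    have hpT : p ∉ T := fun h => hp (Finset.mem_insert_of_mem h)
    have hjp : j ≠ p := fun h => hp (h ▸ Finset.mem_insert_self _ _)
    refine mem_of_dec C alt hk H (φ := φ j) h2
      (D := Submodule.comap (LinearMap.mulRight F (φ p (br f₂ v v))) 𝒥)
      (ih2 (tr2 f₂ (φ j) x y z) (fun l hl => (out hz _ _ l hl).sub (out hz _ _ l hl)) (by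
        rw [adj_tr (A := A j), e, tr2, tr2, cf_neg, cf_neg]; abel) p hpT hpi v) fun u w => ?_
    have k := JS.uu (hN j p hjp hji hpi w v) (by
      rw [mul_assoc, (S.cm p j hjp.symm _).left, ← mul_assoc, ← map_mul, br_mul_br C.ses, alt]
      simp) (ih1 _ (out hz (dl f₂ u) u) (by rw [adj_cf (A := A j), e, cf_neg, neg_neg]))
    rw [mul_assoc, out hz _ _ p hpT, (out hz _ _ j hj).left, ← two_smul F,
      Submodule.smul_mem_iff _ h2, ← mul_assoc] at k
    exact k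

end Cfsg.Agent.H89.Sp2
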