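import Mathlib

set_option autoImplicit false
open Equiv Finset

namespace Cfsg.Agent.H89St

universe u

section Lat
variable {L : Type u} [Fintype L] [PartialOrder L] [OrderTop L] (d : L → ℕ)

open Classical in
/-- one step of a flag -/
noncomputable def stp (a : ℕ) (f : L → ℤ) (U : L) : ℤ :=
  ∑ W, if U ≤ W ∧ d W = d U + a then f W else 0

open Classical in
/-- number of flags of a given type from `U` to the top -/
noncomputable def pc : List ℕ → L → ℤ
  | [] => fun U => if U = ⊤ then 1 else 0
  | a :: l => stp d a (pc l)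

/-- flags of type `μ` starting at `U` -/
def Fl {n : ℕ} (μ : Fin n → ℕ) (U : L) : Type u :=
  {c : Fin (n + 1) → L // c 0 = U ∧ c (Fin.last n) = ⊤ ∧
    ∀ i : Fin n, c i.castSucc ≤ c i.succ ∧ d (c i.succ) = d (c i.castSucc) + μ i}

instance instFiniteFl {n : ℕ} (μ : Fin n → ℕ) (U : L) : Finite (Fl d μ U) := by
  unfold Fl; infer_instance

theorem card_Fl : ∀ {n : ℕ} (μ : Fin n → ℕ) (U : L),
    (Nat.card (Fl d μ U) : ℤ) = pc d (List.ofFn μ) U
  | 0, μ, U => by
    classical
    simp only [List.ofFn_zero, pc]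
    split_ifs with h
    · subst h
      have : Nat.card (Fl d μ ⊤) = 1 := by
        refine Nat.card_eq_one_iff_unique.2 ⟨⟨fun a b => Subtype.ext (funext fun i => ?_)⟩,
          ⟨⟨fun _ => ⊤, rfl, rfl, fun i => i.elim0⟩⟩⟩
        rw [Fin.fin_one_eq_zero i, a.2.1, b.2.1]
      rw [this]; rfl
    · have : IsEmpty (Fl d μ U) := ⟨fun c => h (c.2.1.symm.trans c.2.2.1)⟩
      simp
  | n + 1, μ, U => by
    classical
    have e : Fl d μ U ≃ Σ W : {W : L // U ≤ W ∧ d W = d U + μ 0}, Fl d (fun i => μ i.succ) W.1 :=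
      { toFun := fun c => ⟨⟨c.1 1, by
            have := c.2.2.2 0
            simpa [c.2.1] using this⟩,
          ⟨fun i => c.1 i.succ, rfl, c.2.2.1, fun i => c.2.2.2 i.succ⟩⟩
        invFun := fun c => ⟨Fin.cons U c.2.1, rfl, c.2.2.2.1, fun i => by
          refine Fin.cases ?_ (fun j => ?_) i
          · have := c.1.2
            rw [← c.2.2.1] at this
            simpa using this
          · exact c.2.2.2.2 j⟩
        left_inv := fun c => Subtype.ext (funext fun i => by
          refine Fin.cases c.2.1.symm (fun j => rfl) i)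
        right_inv := fun ⟨⟨W, hW⟩, c, hc0, hc⟩ => by
          dsimp only at hc0
          subst hc0
          rfl }
    rw [Nat.card_congr e, Nat.card_sigma, List.ofFn_succ, pc, stp]
    push_cast
    simp only [card_Fl]
    rw [← Finset.sum_filter]
    exact (Finset.sum_subtype (univ.filter fun W => U ≤ W ∧ d W = d U + μ 0)
      (by simp) (fun W => pc d (List.ofFn fun i => μ i.succ) W)).symm

omit [OrderTop L] in
theorem stp_sum {ι : Type*} (s : Finset ι) (a : ℕ) (f : ι → L → ℤ) (U : L) :
    stp d a (fun W => ∑ i ∈ s, f i W) U = ∑ i ∈ s, stp d a (f i) U := by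
  classical
  unfold stp
  rw [Finset.sum_comm]
  refine Finset.sum_congr rfl fun W _ => ?_
  split_ifs <;> simp

omit [OrderTop L] in
theorem stp_mul (a : ℕ) (c : ℤ) (f : L → ℤ) (U : L) :
    stp d a (fun W => c * f W) U = c * stp d a f U := by
  classical
  unfold stp
  rw [Finset.mul_sum]
  refine Finset.sum_congr rfl fun W _ => ?_
  split_ifs <;> simp

omit [OrderTop L] in
theorem stp_zero (hd : StrictMono d) (f : L → ℤ) (U : L) : stp d 0 f U = f U := by
  classical
  unfold stp
  rw [Finset.sum_eq_single U (fun W _ hW => if_neg fun h => ?_) (by simp)]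
  · simp
  · have := hd (lt_of_le_of_ne h.1 (Ne.symm hW))
    omega

/-- the alternating sum with first column shifted by `a` -/
noncomputable def alt (a n : ℕ) (U : L) : ℤ :=
  ∑ κ : Perm (Fin n), if ∀ i : Fin n, (κ i).val ≤ 1 + i.val then
    (Perm.sign κ : ℤ) *
      pc d (List.ofFn fun i : Fin n => if (κ i).val = 0 then a + i.val else 1 + i.val - (κ i).val) U
    else 0

theorem alt_zero (a : ℕ) : alt d a 0 = pc d [] := by
  funext U
  simp [alt]

theorem alt_term0 (a n : ℕ) (U : L) :
    (∑ σ : Perm (Fin n), if ∀ i : Fin (n + 1),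
        (Perm.decomposeFin.symm (0, σ) i).val ≤ 1 + i.val then
      (Perm.sign (Perm.decomposeFin.symm (0, σ)) : ℤ) * pc d (List.ofFn fun i : Fin (n + 1) =>
        if (Perm.decomposeFin.symm (0, σ) i).val = 0 then a + i.val
        else 1 + i.val - (Perm.decomposeFin.symm (0, σ) i).val) U else 0) =
      stp d a (alt d 1 n) U := by
  unfold alt
  rw [stp_sum]
  refine Finset.sum_congr rfl fun σ _ => ?_
  have h1 : (∀ i : Fin (n + 1), (Perm.decomposeFin.symm (0, σ) i).val ≤ 1 + i.val) ↔
      ∀ i : Fin n, (σ i).val ≤ 1 + i.val := by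
    rw [Fin.forall_fin_succ]
    simp only [Perm.decomposeFin_symm_apply_zero, Perm.decomposeFin_symm_apply_succ, swap_self,
      refl_apply, Fin.val_succ, Fin.val_zero]
    exact ⟨fun h i => by have := h.2 i; omega, fun h => ⟨by omega, fun i => by have := h i; omega⟩⟩
  by_cases h : ∀ i : Fin n, (σ i).val ≤ 1 + i.val
  · rw [if_pos (h1.2 h)]
    simp only [if_pos h]
    rw [stp_mul, List.ofFn_succ, pc]
    simp only [Perm.decomposeFin_symm_apply_zero, Perm.decomposeFin_symm_apply_succ, swap_self,
      refl_apply, Fin.val_succ, Fin.val_zero, Perm.decomposeFin.symm_sign, if_true, one_mul,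
      add_zero]
    congr 4
    funext i
    rw [if_neg (by omega)]
    split_ifs <;> omega
  · rw [if_neg (mt h1.1 h)]
    simp only [if_neg h]
    simp [stp]

theorem alt_succ_one (a : ℕ) (U : L) : alt d a 1 U = stp d a (alt d 1 0) U := by
  rw [← alt_term0 d a 0 U, alt, Finset.univ_perm_fin_succ, Finset.sum_map, Fintype.sum_prod_type,
    Fin.sum_univ_one]
  rfl

theorem alt_succ (hd : StrictMono d) (a n : ℕ) (U : L) :
    alt d a (n + 2) U = stp d a (alt d 1 (n + 1)) U - alt d (a + 1) (n + 1) U := by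
  rw [← alt_term0 d a (n + 1) U, alt, Finset.univ_perm_fin_succ, Finset.sum_map,
    Fintype.sum_prod_type, Fin.sum_univ_succ, Fin.sum_univ_succ, sub_eq_add_neg]
  congr 1
  rw [Finset.sum_eq_zero (s := univ) (f := fun i : Fin n => ∑ σ : Perm (Fin (n + 1)), _), add_zero]
  · unfold alt
    rw [← Finset.sum_neg_distrib]
    refine Finset.sum_congr rfl fun σ _ => ?_
    have hv : ∀ i : Fin (n + 1), (Perm.decomposeFin.symm (Fin.succ 0, σ) i.succ).val =
        if (σ i).val = 0 then 0 else (σ i).val + 1 := by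
      intro i
      rw [Perm.decomposeFin_symm_apply_succ]
      split_ifs with h
      · rw [show σ i = 0 from Fin.ext h, swap_apply_right]; rfl
      · rw [swap_apply_of_ne_of_ne (Fin.succ_ne_zero _) (fun e => h (by
          rw [Fin.succ_inj.1 e]; rfl))]; rfl
    have h1 : (∀ i : Fin (n + 2), (Perm.decomposeFin.symm (Fin.succ 0, σ) i).val ≤ 1 + i.val) ↔
        ∀ i : Fin (n + 1), (σ i).val ≤ 1 + i.val := by
      rw [Fin.forall_fin_succ]
      simp only [Perm.decomposeFin_symm_apply_zero, hv, Fin.val_succ, Fin.val_zero]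
      refine ⟨fun h i => ?_, fun h => ⟨by omega, fun i => ?_⟩⟩
      · have := h.2 i
        split_ifs at this <;> omega
      · have := h i
        split_ifs <;> omega
    simp only [Equiv.toEmbedding_apply]
    by_cases h : ∀ i : Fin (n + 1), (σ i).val ≤ 1 + i.val
    · rw [if_pos (h1.2 h), if_pos h, List.ofFn_succ, pc]
      simp only [Perm.decomposeFin_symm_apply_zero, hv, Fin.val_succ, Fin.val_zero,
        Perm.decomposeFin.symm_sign, if_neg (Fin.succ_ne_zero _)]
      rw [if_neg (by omega), show 1 + 0 - (0 + 1) = 0 from rfl, stp_zero d hd]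
      simp only [Units.val_neg, neg_mul, one_mul]
      congr 4
      funext i
      by_cases h0 : (σ i).val = 0
      · simp only [h0, if_true]; omega
      · simp only [h0, if_false]
        rw [if_neg (by omega)]; omega
    · rw [if_neg (mt h1.1 h), if_neg h, neg_zero]
  · intro j _
    refine Finset.sum_eq_zero fun σ _ => if_neg fun h => ?_
    have := h 0
    simp at this

theorem alt_eq (hd : StrictMono d) : ∀ (n a : ℕ) (U : L), alt d a (n + 1) U =
    ∑ j ∈ range (n + 1), (-1) ^ j * stp d (a + j) (alt d 1 (n - j)) U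
  | 0, a, U => by simp [alt_succ_one]
  | n + 1, a, U => by
    rw [alt_succ d hd, alt_eq hd n (a + 1) U, Finset.sum_range_succ' _ (n + 1), sub_eq_add_neg,
      add_comm, ← Finset.sum_neg_distrib]
    congr 1
    · refine Finset.sum_congr rfl fun j _ => ?_
      rw [show a + 1 + j = a + (j + 1) by omega, show n + 1 - (j + 1) = n - j by omega]
      ring
    · simp

open Classical in
/-- `m` is the Moebius function `U ↦ μ(U, ⊤)` -/
def IsMu (m : L → ℤ) : Prop := m ⊤ = 1 ∧ ∀ U : L, U ≠ ⊤ → ∑ W with U ≤ W, m W = 0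

theorem isMu_alt (hd : StrictMono d) :
    IsMu (fun U : L => (-1) ^ (d ⊤ - d U) * alt d 1 (d ⊤ - d U) U) := by
  classical
  refine ⟨by simp [alt_zero, pc], fun U hU => ?_⟩
  obtain ⟨k, hk⟩ : ∃ k, d ⊤ = d U + (k + 1) := by
    have := hd (lt_top_iff_ne_top.2 hU)
    exact ⟨d ⊤ - d U - 1, by omega⟩
  have h1 : ∑ W with U ≤ W, (-1) ^ (d ⊤ - d W) * alt d 1 (d ⊤ - d W) W =
      ∑ j ∈ range (k + 2), (-1) ^ (k + 1 - j) * stp d j (alt d 1 (k + 1 - j)) U := by
    rw [← Finset.sum_fiberwise_of_maps_to (t := range (k + 2)) (g := fun W => d W - d U)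
      (fun W _ => by
        have := hd.monotone (le_top (a := W))
        simp only [mem_range]; omega)]
    refine Finset.sum_congr rfl fun j _ => ?_
    rw [← stp_mul, stp, ← Finset.sum_filter, Finset.filter_filter]
    refine Finset.sum_congr ?_ fun W hW => ?_
    · ext W
      simp only [mem_filter, mem_univ, true_and]
      refine and_congr_right fun h => ?_
      have := hd.monotone h
      omega
    · rw [show d ⊤ - d W = k + 1 - j by
        have := (mem_filter.1 hW).2.2
        omega]
  convert h1.trans ?_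
  rw [Finset.sum_range_succ', Nat.sub_zero, stp_zero d hd, alt_eq d hd k 1 U, Finset.mul_sum,
    ← Finset.sum_add_distrib]
  refine Finset.sum_eq_zero fun j hj => ?_
  have hj' : j ≤ k := by simpa [Nat.lt_succ_iff] using hj
  obtain ⟨i, rfl⟩ := Nat.exists_eq_add_of_le hj'
  rw [show j + i + 1 - (j + 1) = i by omega, show j + i - j = i by omega, add_comm 1 j]
  have : (-1 : ℤ) ^ j * (-1) ^ j = 1 := by rw [← mul_pow]; simp
  rw [pow_succ, pow_add]
  linear_combination (-(-1) ^ i * stp d (j + 1) (alt d 1 i) U) * this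

end Lat

open Classical in
/-- Weisner's theorem (dual form). -/
theorem weisner {L : Type*} [Fintype L] [Lattice L] [OrderTop L] {m : L → ℤ} (hm : IsMu m)
    {a : L} (ha : a ≠ ⊤) (U : L) (hU : U ≤ a) : ∑ W with W ⊓ a = U, m W = 0 := by
  induction U using (wellFounded_gt (α := L)).induction with
  | _ U ih =>
  have h1 := hm.2 U (fun e => ha (top_le_iff.1 (e ▸ hU)))
  rw [← Finset.sum_fiberwise_of_maps_to (t := univ.filter fun V => U ≤ V ∧ V ≤ a)
    (g := fun W => W ⊓ a) (fun W hW => by
      simp only [mem_filter, mem_univ, true_and] at hW ⊢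
      exact ⟨le_inf hW hU, inf_le_right⟩),
    Finset.sum_eq_single U (fun V hV hne => ?_) (fun h => absurd (by simp [hU]) h)] at h1
  · rw [← h1, Finset.filter_filter]
    refine Finset.sum_congr ?_ fun _ _ => rfl
    ext W
    simp only [mem_filter, mem_univ, true_and]
    exact ⟨fun h => ⟨h ▸ inf_le_left, h⟩, fun h => h.2⟩
  · simp only [mem_filter, mem_univ, true_and] at hV
    rw [← ih V (lt_of_le_of_ne hV.1 (Ne.symm hne)) hV.2, Finset.filter_filter]
    refine Finset.sum_congr ?_ fun _ _ => rfl
    ext W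
    simp only [mem_filter, mem_univ, true_and]
    exact ⟨fun h => h.2, fun h => ⟨hV.1.trans (h ▸ inf_le_left), h⟩⟩

open Classical in
theorem IsMu.comp {L L' : Type*} [Fintype L] [PartialOrder L] [OrderTop L] [Fintype L']
    [PartialOrder L'] [OrderTop L'] {m : L → ℤ} (hm : IsMu m) (W : L) (e : L' ≃o Set.Ici W) :
    IsMu fun U : L' => m (e U) := by
  have ht : ((e ⊤ : Set.Ici W) : L) = ⊤ := by
    have : (⟨⊤, le_top⟩ : Set.Ici W) ≤ e ⊤ := by
      rw [← e.apply_symm_apply ⟨⊤, le_top⟩]
      exact e.monotone le_top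
    exact top_le_iff.1 this
  refine ⟨by simp only [ht, hm.1], fun U hU => ?_⟩
  have h1 := hm.2 (e U) (fun h => hU (e.injective (Subtype.ext (h.trans ht.symm))))
  rw [← h1]
  refine Finset.sum_bij (fun V _ => (e V : L)) (fun V hV => ?_) (fun V _ V' _ h => ?_)
    (fun V hV => ?_) (fun _ _ => rfl)
  · simp only [mem_filter, mem_univ, true_and] at hV ⊢
    exact e.monotone hV
  · exact e.injective (Subtype.ext h)
  · simp only [mem_filter, mem_univ, true_and] at hV ⊢
    refine ⟨e.symm ⟨V, (e U).2.trans hV⟩, ?_, by simp⟩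
    rw [← e.le_iff_le, e.apply_symm_apply]
    exact hV

end Cfsg.Agent.H89St
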