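import Cfsg.Agent.H89.StA

set_option autoImplicit false
open Finset Polynomial

namespace Cfsg.Agent.H89St

universe u v

variable {F : Type v} [Field F]

/-- number of elements killed by `g` -/
noncomputable def tor (g : F[X]) (M : Type*) [AddCommGroup M] [Module F[X] M] : ℕ :=
  Nat.card {v : M // g • v = 0}

theorem tor_congr (g : F[X]) {M N : Type*} [AddCommGroup M] [Module F[X] M] [AddCommGroup N]
    [Module F[X] N] (e : M ≃ₗ[F[X]] N) : tor g M = tor g N :=
  Nat.card_congr (e.toEquiv.subtypeEquiv fun v => by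
    change _ ↔ g • e v = 0
    rw [← map_smul, e.map_eq_zero_iff])

theorem tor_prod (g : F[X]) (M N : Type*) [AddCommGroup M] [Module F[X] M] [AddCommGroup N]
    [Module F[X] N] : tor g (M × N) = tor g M * tor g N := by
  unfold tor
  rw [← Nat.card_prod]
  exact Nat.card_congr ((Equiv.subtypeEquivRight fun v => by simp [Prod.ext_iff]).trans
    (Equiv.subtypeProdEquivProd (p := fun v : M => g • v = 0) (q := fun v : N => g • v = 0)))

theorem card_quot [Finite F] {f : F[X]} (hf : f.Monic) :
    Nat.card (F[X] ⧸ Ideal.span {f}) = Nat.card F ^ f.natDegree := by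
  have : Module.Finite F (F[X] ⧸ Ideal.span {f}) := (AdjoinRoot.powerBasis' hf).finite
  rw [Module.natCard_eq_pow_finrank (K := F), finrank_quotient_span_eq_natDegree]

theorem smul_quot_self (f : F[X]) (v : F[X] ⧸ Ideal.span {f}) : f • v = 0 := by
  obtain ⟨v, rfl⟩ := Ideal.Quotient.mk_surjective v
  change Ideal.Quotient.mk _ (f * v) = 0
  exact Ideal.Quotient.eq_zero_iff_mem.2 (Ideal.mem_span_singleton.2 (dvd_mul_right _ _))

open Classical in
theorem tor_quot [Finite F] {f g : F[X]} (hf : f.Monic) (hf' : Irreducible f) (hg : g.Monic)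
    (hg' : Irreducible g) :
    tor g (F[X] ⧸ Ideal.span {f}) = if g = f then Nat.card F ^ f.natDegree else 1 := by
  split_ifs with h
  · subst h
    rw [← card_quot hf]
    exact Nat.card_congr (Equiv.subtypeUnivEquiv (smul_quot_self g))
  · obtain ⟨a, b, hab⟩ : IsCoprime f g := by
      rw [hf'.coprime_iff_not_dvd]
      intro e
      exact h (eq_of_monic_of_associated hf hg (hf'.associated_of_dvd hg' e)).symm
    refine Nat.card_eq_one_iff_unique.2 ⟨⟨fun x y => Subtype.ext ?_⟩, ⟨⟨0, smul_zero _⟩⟩⟩
    have : ∀ z : {v : F[X] ⧸ Ideal.span {f} // g • v = 0}, z.1 = 0 := fun z => by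
      rw [← one_smul F[X] z.1, ← hab, add_smul, mul_smul, mul_smul, z.2, smul_quot_self]
      simp
    rw [this x, this y]

theorem card_hom (f : F[X]) (H : Type*) [AddCommGroup H] [Module F[X] H] :
    Nat.card ((F[X] ⧸ Ideal.span {f}) →ₗ[F[X]] H) = tor f H := by
  refine Nat.card_congr
    { toFun := fun φ => ⟨φ (Submodule.Quotient.mk 1), by rw [← map_smul, smul_quot_self, map_zero]⟩
      invFun := fun v => Submodule.liftQ _ (LinearMap.toSpanSingleton _ _ v.1) (by
        rw [Ideal.span_le]
        rintro _ rfl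
        exact v.2)
      left_inv := fun φ => ?_
      right_inv := fun v => Subtype.ext (one_smul F[X] v.1) }
  refine Submodule.linearMap_qext _ (LinearMap.ext_ring ?_)
  simp

theorem card_compl {R M : Type*} [Ring R] [AddCommGroup M] [Module R M] {H S : Submodule R M}
    (h : IsCompl H S) : Nat.card {W : Submodule R M // IsCompl H W} = Nat.card (S →ₗ[R] H) := by
  rw [Nat.card_congr H.isComplEquivProj]
  exact Nat.card_congr
    { toFun := fun f => f.1.domRestrict S
      invFun := fun ψ => ⟨LinearMap.ofIsCompl h LinearMap.id ψ, fun x => by simp⟩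
      left_inv := fun f => Subtype.ext (LinearMap.ofIsCompl_eq h (fun u => (f.2 u).symm)
        fun _ => rfl)
      right_inv := fun ψ => LinearMap.ext fun x => by simp }

open Classical in
/-- `M` has the composition factors `F[X]/(f)`, `f ∈ s` -/
def Typ (M : Type*) [AddCommGroup M] [Module F[X] M] (s : Multiset F[X]) : Prop :=
  (∀ f ∈ s, f.Monic ∧ Irreducible f) ∧ Nat.card M = Nat.card F ^ (s.map natDegree).sum ∧
    ∀ f : F[X], f.Monic → Irreducible f → tor f M = Nat.card F ^ (f.natDegree * s.count f)

theorem Typ.congr {M N : Type*} [AddCommGroup M] [Module F[X] M] [AddCommGroup N]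
    [Module F[X] N] (e : M ≃ₗ[F[X]] N) {s : Multiset F[X]} (h : Typ M s) : Typ N s :=
  ⟨h.1, (Nat.card_congr e.toEquiv).symm.trans h.2.1,
    fun f hf hf' => (tor_congr f e).symm.trans (h.2.2 f hf hf')⟩

open Classical in
/-- the value of the Moebius function -/
noncomputable def cval (q : ℤ) (s : Multiset F[X]) : ℤ :=
  ∏ f ∈ s.toFinset, (-1) ^ s.count f * q ^ (f.natDegree * (s.count f).choose 2)

open Classical in
theorem cval_cons (q : ℤ) (s : Multiset F[X]) (f : F[X]) :
    cval q (f ::ₘ s) = -(q ^ (f.natDegree * s.count f) * cval q s) := by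
  have h1 : cval q s = ∏ g ∈ insert f s.toFinset,
      (-1) ^ s.count g * q ^ (g.natDegree * (s.count g).choose 2) := by
    unfold cval
    rw [Finset.prod_insert_of_eq_one_if_notMem]
    intro h
    rw [Multiset.count_eq_zero.2 (by simpa using h)]
    simp
  rw [h1, cval, Multiset.toFinset_cons, ← Finset.mul_prod_erase _ _ (mem_insert_self f _),
    ← Finset.mul_prod_erase _ _ (mem_insert_self f _), Multiset.count_cons_self,
    Finset.prod_congr rfl (fun g hg => by
      rw [Multiset.count_cons_of_ne (Finset.ne_of_mem_erase hg)]),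
    Nat.choose_succ_succ', Nat.choose_one_right]
  ring

theorem mu_eq [Finite F] (s : Multiset F[X]) : ∀ (M : Type u) [AddCommGroup M] [Module F[X] M]
    [IsSemisimpleModule F[X] M] [Fintype (Submodule F[X] M)] (m : Submodule F[X] M → ℤ),
    IsMu m → Typ M s → m ⊥ = cval (Nat.card F) s := by
  classical
  have hq : 1 < Nat.card F := Finite.one_lt_card
  induction s using Multiset.induction_on with
  | empty =>
    intro M _ _ _ _ m hm hT
    have : Subsingleton M := (Nat.card_eq_one_iff_unique.1 (by simpa using hT.2.1)).1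
    rw [Subsingleton.elim (⊥ : Submodule F[X] M) ⊤, hm.1]
    simp [cval]
  | cons f s ih =>
    intro M _ _ _ _ m hm hT
    obtain ⟨hf, hf'⟩ := hT.1 f (Multiset.mem_cons_self _ _)
    have hd : 0 < f.natDegree := hf'.natDegree_pos
    have hfin : Finite M := Nat.finite_of_card_ne_zero (by rw [hT.2.1]; positivity)
    obtain ⟨v, hv, hv0⟩ : ∃ v : M, f • v = 0 ∧ v ≠ 0 := by
      have h1 : 1 < tor f M := by
        rw [hT.2.2 f hf hf', Multiset.count_cons_self]
        exact Nat.one_lt_pow (by positivity) hq
      have := Finite.one_lt_card_iff_nontrivial.1 h1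
      obtain ⟨x, hx⟩ := exists_ne (⟨0, smul_zero _⟩ : {v : M // f • v = 0})
      exact ⟨x.1, x.2, fun e => hx (Subtype.ext e)⟩
    have hmax : (Ideal.span {f}).IsMaximal := PrincipalIdealRing.isMaximal_of_irreducible hf'
    have hto : Ideal.torsionOf F[X] M v = Ideal.span {f} := by
      refine (hmax.eq_of_le (fun e => hv0 ((Ideal.torsionOf_eq_top_iff _ _).1 e)) ?_).symm
      rw [Ideal.span_le]
      rintro _ rfl
      exact hv
    have eS : (F[X] ⧸ Ideal.span {f}) ≃ₗ[F[X]] (F[X] ∙ v) :=
      (Submodule.quotEquivOfEq _ _ hto.symm).trans (Ideal.quotTorsionOfEquivSpanSingleton _ M v)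
    obtain ⟨H, hH⟩ := exists_isCompl (F[X] ∙ v)
    have hsimple : IsSimpleModule F[X] (F[X] ∙ v) := by
      have : IsSimpleModule F[X] (F[X] ⧸ Ideal.span {f}) :=
        isSimpleModule_iff_isCoatom.2 (Ideal.isMaximal_def.1 hmax)
      exact IsSimpleModule.congr eS.symm
    have hco : IsCoatom H := hH.isAtom_iff_isCoatom.1 (isSimpleModule_iff_isAtom.1 hsimple)
    have eM : M ≃ₗ[F[X]] H × (F[X] ⧸ Ideal.span {f}) :=
      (H.prodEquivOfIsCompl _ hH.symm).symm.trans ((LinearEquiv.refl _ _).prodCongr eS.symm)
    have hTH : Typ H s := by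
      refine ⟨fun g hg => hT.1 g (Multiset.mem_cons_of_mem hg), ?_, fun g hg hg' => ?_⟩
      · have h1 := hT.2.1
        rw [Nat.card_congr eM.toEquiv, Nat.card_prod, card_quot hf, Multiset.map_cons,
          Multiset.sum_cons, pow_add, mul_comm] at h1
        exact Nat.eq_of_mul_eq_mul_left (by positivity) h1
      · have h1 := hT.2.2 g hg hg'
        rw [tor_congr g eM, tor_prod, tor_quot hf hf' hg hg'] at h1
        split_ifs at h1 with e
        · subst e
          rw [Multiset.count_cons_self, mul_add, mul_one, pow_add] at h1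
          exact Nat.eq_of_mul_eq_mul_right (by positivity) h1
        · rwa [Multiset.count_cons_of_ne e, mul_one] at h1
    have h1 := weisner hm hco.1 ⊥ bot_le
    have h2 : (univ.filter fun W : Submodule F[X] M => W ⊓ H = ⊥) =
        insert ⊥ (univ.filter fun W : Submodule F[X] M => IsCompl H W) := by
      ext W
      simp only [mem_filter, mem_univ, true_and, mem_insert]
      constructor
      · intro h
        by_cases hW : W = ⊥
        · exact Or.inl hW
        · refine Or.inr ⟨disjoint_iff.2 (by rw [inf_comm, h]), codisjoint_iff.2 ?_⟩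
          refine hco.2 _ (lt_of_le_of_ne le_sup_left fun e => hW ?_)
          rw [← h, left_eq_inf]
          exact le_sup_right.trans e.ge
      · rintro (rfl | h)
        · simp
        · rw [inf_comm, h.inf_eq_bot]
    have h3 : ∀ W ∈ univ.filter fun W : Submodule F[X] M => IsCompl H W,
        m W = cval (Nat.card F) s := by
      intro W hW
      have hW' := (mem_filter.1 hW).2
      have : Fintype (Submodule F[X] (M ⧸ W)) :=
        Fintype.ofEquiv _ (W.comapMkQRelIso).toEquiv.symm
      have := ih (M ⧸ W) _ (hm.comp W W.comapMkQRelIso)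
        (hTH.congr (W.quotientEquivOfIsCompl H hW'.symm).symm)
      rw [← this]
      congr 1
      simp [Submodule.comapMkQRelIso]
    have h4 : (univ.filter fun W : Submodule F[X] M => IsCompl H W).card =
        Nat.card F ^ (f.natDegree * s.count f) := by
      rw [← hTH.2.2 f hf hf', ← card_hom, ← Fintype.card_subtype, ← Nat.card_eq_fintype_card,
        card_compl hH.symm]
      exact Nat.card_congr (LinearEquiv.arrowCongr eS.symm (LinearEquiv.refl _ _)).toEquiv
    convert_to _ = -((Nat.card F : ℤ) ^ (f.natDegree * s.count f) * cval (Nat.card F) s)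
    · convert cval_cons _ s f
    have h5 : ∑ W ∈ univ.filter fun W : Submodule F[X] M => W ⊓ H = ⊥, m W = 0 := by convert h1
    rw [h2, Finset.sum_insert (fun h => hco.1 (by simpa using (mem_filter.1 h).2.sup_eq_top)),
      Finset.sum_congr rfl h3, Finset.sum_const, h4, nsmul_eq_mul] at h5
    push_cast at h5
    linear_combination h5

end Cfsg.Agent.H89St
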