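import Cfsg.Agent.H89.StB
import Cfsg.Agent.H66.Semisimple
import Cfsg.Agent.H66.UnipotentChar

set_option autoImplicit false
open Finset Polynomial Module

namespace Cfsg.Agent.H89St

section Chain
variable {F V : Type*} [Field F] [AddCommGroup V] [Module F V] [FiniteDimensional F V]

theorem exists_equiv_step {C A B : Submodule F V} (hA : C ≤ A) (hB : C ≤ B)
    (h : finrank F A = finrank F B) :
    ∃ g : V ≃ₗ[F] V, (∀ v ∈ C, g v = v) ∧ A.map (g : V →ₗ[F] V) = B := by
  let e0 : A ≃ₗ[F] B := LinearEquiv.ofFinrankEq _ _ h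
  let f : ((C.comap A.subtype).map (e0 : A →ₗ[F] B)) ≃ₗ[F] C.comap B.subtype :=
    ((e0.submoduleMap (C.comap A.subtype)).symm.trans (Submodule.comapSubtypeEquivOfLe hA)).trans
      (Submodule.comapSubtypeEquivOfLe hB).symm
  obtain ⟨k, hk⟩ := Submodule.exists_linearEquiv_restrict_eq f
  obtain ⟨g, hg⟩ := Submodule.exists_linearEquiv_restrict_eq (e0.trans k)
  refine ⟨g, fun v hv => ?_, ?_⟩
  · have h1 := hg ⟨v, hA hv⟩
    have h2 := hk ⟨e0 ⟨v, hA hv⟩, Submodule.mem_map_of_mem (f := (e0 : A →ₗ[F] B)) hv⟩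
    simp only [LinearEquiv.trans_apply] at h1
    rw [← h1, ← h2]
    simp [f]
  · refine Submodule.eq_of_le_of_finrank_eq ?_ (by rw [LinearEquiv.finrank_map_eq, h])
    rintro _ ⟨v, hv, rfl⟩
    have h1 := hg ⟨v, hv⟩
    change g v ∈ B
    rw [← h1]
    exact Subtype.property _

theorem exists_equiv_chain {n : ℕ} {A B : Fin (n + 1) → Submodule F V} (hA : Monotone A)
    (hB : Monotone B) (h : ∀ j, finrank F (A j) = finrank F (B j)) :
    ∃ g : V ≃ₗ[F] V, ∀ j, (A j).map (g : V →ₗ[F] V) = B j := by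
  have key : ∀ k : Fin (n + 1), ∃ g : V ≃ₗ[F] V, ∀ j ≤ k, (A j).map (g : V →ₗ[F] V) = B j := by
    intro k
    induction k using Fin.induction with
    | zero =>
      obtain ⟨g, -, hg⟩ := exists_equiv_step (bot_le : ⊥ ≤ A 0) (bot_le : ⊥ ≤ B 0) (h 0)
      exact ⟨g, fun j hj => by rw [Fin.le_zero_iff.1 hj, hg]⟩
    | succ k ih =>
      obtain ⟨e, he⟩ := ih
      obtain ⟨g, hg1, hg2⟩ := exists_equiv_step (C := B k.castSucc)
        (A := (A k.succ).map (e : V →ₗ[F] V)) (B := B k.succ)
        (by rw [← he _ le_rfl]; exact Submodule.map_mono (hA (Fin.castSucc_le_succ k)))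
        (hB (Fin.castSucc_le_succ k)) (by rw [LinearEquiv.finrank_map_eq, h])
      refine ⟨e.trans g, fun j hj => ?_⟩
      rw [LinearEquiv.coe_trans, Submodule.map_comp]
      rcases hj.lt_or_eq with hj | rfl
      · have hj' : j ≤ k.castSucc := Fin.le_castSucc_iff.2 hj
        rw [he j hj']
        refine Submodule.eq_of_le_of_finrank_eq ?_ (by rw [LinearEquiv.finrank_map_eq])
        rintro _ ⟨v, hv, rfl⟩
        change g v ∈ B j
        rw [hg1 v (hB hj' hv)]
        exact hv
      · exact hg2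
  obtain ⟨g, hg⟩ := key (Fin.last n)
  exact ⟨g, fun j => hg j (Fin.le_last j)⟩

end Chain

variable {F : Type*} [Field F] {n : ℕ}

/-- action on subspaces -/
noncomputable def act (g : GL (Fin n) F) (U : Submodule F (Fin n → F)) : Submodule F (Fin n → F) :=
  U.map (Matrix.toLin' (g : Matrix (Fin n) (Fin n) F))

theorem act_mul (g h : GL (Fin n) F) (U : Submodule F (Fin n → F)) :
    act (g * h) U = act g (act h U) := by
  simp [act, Matrix.toLin'_mul, Submodule.map_comp]

theorem act_one (U : Submodule F (Fin n → F)) : act 1 U = U := by simp [act]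

theorem finrank_act (g : GL (Fin n) F) (U : Submodule F (Fin n → F)) :
    finrank F (act g U) = finrank F U := by
  refine le_antisymm (Submodule.finrank_map_le _ _) ?_
  conv_lhs => rw [← act_one U, ← inv_mul_cancel g, act_mul]
  exact Submodule.finrank_map_le _ _

theorem act_eq_of_le {g : GL (Fin n) F} {U : Submodule F (Fin n → F)} (h : act g U ≤ U) :
    act g U = U := Submodule.eq_of_le_of_finrank_eq h (finrank_act g U)

/-- the standard flag -/
def stdF (F : Type*) [Field F] (μ : Fin n → ℕ) (j : Fin (n + 1)) : Submodule F (Fin n → F) where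
  carrier := {v | ∀ i, j.val ≤ compLabel μ i → v i = 0}
  add_mem' := fun ha hb i hi => by simp [ha i hi, hb i hi]
  zero_mem' := fun _ _ => rfl
  smul_mem' := fun c v hv i hi => by simp [hv i hi]

theorem finrank_stdF (μ : Fin n → ℕ) (j : Fin (n + 1)) :
    finrank F (stdF F μ j) = (univ.filter fun i : Fin n => compLabel μ i < j.val).card := by
  classical
  have e : stdF F μ j ≃ₗ[F] ({i : Fin n // compLabel μ i < j.val} → F) :=
    { toFun := fun v i => v.1 i.1
      map_add' := fun _ _ => rfl
      map_smul' := fun _ _ => rfl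
      invFun := fun w => ⟨fun i => if h : compLabel μ i < j.val then w ⟨i, h⟩ else 0,
        fun i hi => dif_neg (by omega)⟩
      left_inv := fun v => Subtype.ext (funext fun i => by
        dsimp only
        split_ifs with h
        · rfl
        · exact (v.2 i (by omega)).symm)
      right_inv := fun w => funext fun i => by simp [i.2] }
  rw [e.finrank_eq, Module.finrank_fintype_fun_eq_card, Fintype.card_subtype]

theorem stdF_mono (μ : Fin n → ℕ) : Monotone (stdF F μ) := fun _ _ h _ hv i hi =>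
  hv i (le_trans h hi)

theorem stdF_zero (μ : Fin n → ℕ) : stdF F μ 0 = ⊥ :=
  (Submodule.eq_bot_iff _).2 fun _ hv => funext fun i => hv i (Nat.zero_le _)

theorem stdF_last (μ : Fin n → ℕ) (hμ : ∑ i, μ i = n) : stdF F μ (Fin.last n) = ⊤ :=
  Submodule.eq_top_iff'.2 fun _ i hi => absurd (H66.compLabel_lt μ hμ i) (not_lt.2 hi)

theorem finrank_stdF_succ (μ : Fin n → ℕ) (hμ : ∑ i, μ i = n) (i : Fin n) :
    finrank F (stdF F μ i.succ) = finrank F (stdF F μ i.castSucc) + μ i := by
  rw [finrank_stdF, finrank_stdF, ← H66.card_compLabel_eq μ hμ i, ← Finset.card_union_of_disjoint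
    (Finset.disjoint_filter.2 fun k _ h1 h2 => by simp at h1; omega)]
  congr 1
  ext k
  simp only [mem_filter, mem_univ, true_and, mem_union, Fin.val_succ, Fin.val_castSucc]
  omega

theorem mem_parabolic_iff (μ : Fin n → ℕ) (hμ : ∑ i, μ i = n) (g : GL (Fin n) F) :
    g ∈ parabolicGL n F μ ↔ ∀ j, act g (stdF F μ j) = stdF F μ j := by
  constructor
  · intro h j
    refine act_eq_of_le ?_
    rintro _ ⟨v, hv, rfl⟩ i hi
    rw [Matrix.toLin'_apply, Matrix.mulVec, dotProduct]
    refine Finset.sum_eq_zero fun k _ => ?_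
    by_cases hk : j.val ≤ compLabel μ k
    · rw [hv k hk, mul_zero]
    · rw [h (show compLabel μ k < compLabel μ i by omega), zero_mul]
  · intro h i k hik
    have hk := H66.compLabel_lt μ hμ k
    have h1 : (Pi.single k 1 : Fin n → F) ∈ stdF F μ ⟨compLabel μ k + 1, by omega⟩ := by
      intro l hl
      refine Pi.single_eq_of_ne (fun e => ?_) _
      subst e
      simp at hl
    have h2 := (h _).le (Submodule.mem_map_of_mem h1) i hik
    simpa using h2

/-- the flag of a coset -/
noncomputable def cosetFl (μ : Fin n → ℕ) (hμ : ∑ i, μ i = n) (y : GL (Fin n) F ⧸ parabolicGL n F μ) :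
    Fin (n + 1) → Submodule F (Fin n → F) :=
  Quotient.liftOn' y (fun g j => act g (stdF F μ j)) fun g h hgh => funext fun j => by
    rw [QuotientGroup.leftRel_apply] at hgh
    rw [← (mem_parabolic_iff μ hμ _).1 hgh j, ← act_mul, mul_inv_cancel_left,
      (mem_parabolic_iff μ hμ _).1 hgh j]

theorem cosetFl_mk (μ : Fin n → ℕ) (hμ : ∑ i, μ i = n) (g : GL (Fin n) F) (j : Fin (n + 1)) :
    cosetFl μ hμ (g : GL (Fin n) F ⧸ parabolicGL n F μ) j = act g (stdF F μ j) := rfl

theorem cosetFl_smul (μ : Fin n → ℕ) (hμ : ∑ i, μ i = n) (g : GL (Fin n) F)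
    (y : GL (Fin n) F ⧸ parabolicGL n F μ) (j : Fin (n + 1)) :
    cosetFl μ hμ (g • y) j = act g (cosetFl μ hμ y j) := by
  obtain ⟨h, rfl⟩ := QuotientGroup.mk_surjective y
  exact act_mul g h _

theorem cosetFl_inj (μ : Fin n → ℕ) (hμ : ∑ i, μ i = n) :
    Function.Injective (cosetFl (F := F) μ hμ) := by
  intro y z h
  obtain ⟨g, rfl⟩ := QuotientGroup.mk_surjective y
  obtain ⟨k, rfl⟩ := QuotientGroup.mk_surjective z
  rw [QuotientGroup.eq, mem_parabolic_iff μ hμ]
  intro j
  rw [act_mul, ← cosetFl_mk μ hμ k, ← h, cosetFl_mk, ← act_mul, inv_mul_cancel, act_one]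

theorem cosetFl_surj (μ : Fin n → ℕ) (hμ : ∑ i, μ i = n) (c : Fin (n + 1) → Submodule F (Fin n → F))
    (h0 : c 0 = ⊥) (hc : ∀ i : Fin n, c i.castSucc ≤ c i.succ ∧
      finrank F (c i.succ) = finrank F (c i.castSucc) + μ i) : ∃ y, cosetFl μ hμ y = c := by
  obtain ⟨g, hg⟩ := exists_equiv_chain (stdF_mono μ) (Fin.monotone_iff_le_succ.2 fun i => (hc i).1)
    (fun j => by
      induction j using Fin.induction with
      | zero => rw [h0, stdF_zero]
      | succ k ih => rw [finrank_stdF_succ μ hμ, (hc k).2, ih])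
  refine ⟨(H66.glOfEquiv g : GL (Fin n) F), funext fun j => ?_⟩
  rw [cosetFl_mk, act, H66.toLin'_glOfEquiv, hg]

/-- underlying subspace of an invariant submodule -/
noncomputable def und {φ : Module.End F (Fin n → F)} (W : Submodule F[X] (Module.AEval' φ)) :
    Submodule F (Fin n → F) := ((Module.AEval.mapSubmodule F (Fin n → F) φ).symm W).1

theorem und_le_iff {φ : Module.End F (Fin n → F)} {W W' : Submodule F[X] (Module.AEval' φ)} :
    und W ≤ und W' ↔ W ≤ W' := (Module.AEval.mapSubmodule F (Fin n → F) φ).symm.le_iff_le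

theorem und_inj {φ : Module.End F (Fin n → F)} {W W' : Submodule F[X] (Module.AEval' φ)}
    (h : und W = und W') : W = W' := le_antisymm (und_le_iff.1 h.le) (und_le_iff.1 h.ge)

theorem und_bot (φ : Module.End F (Fin n → F)) : und (⊥ : Submodule F[X] (Module.AEval' φ)) = ⊥ := by
  simp [und]

theorem und_top (φ : Module.End F (Fin n → F)) : und (⊤ : Submodule F[X] (Module.AEval' φ)) = ⊤ := by
  simp [und]

theorem map_und_le {φ : Module.End F (Fin n → F)} (W : Submodule F[X] (Module.AEval' φ)) :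
    (und W).map φ ≤ und W :=
  Submodule.map_le_iff_le_comap.2 ((Module.AEval.mapSubmodule F (Fin n → F) φ).symm W).2

theorem exists_und {φ : Module.End F (Fin n → F)} {U : Submodule F (Fin n → F)}
    (h : U.map φ ≤ U) : ∃ W : Submodule F[X] (Module.AEval' φ), und W = U :=
  ⟨Module.AEval.mapSubmodule F (Fin n → F) φ ⟨U, Submodule.map_le_iff_le_comap.1 h⟩, by simp [und]⟩

theorem und_strictMono (φ : Module.End F (Fin n → F)) :
    StrictMono fun W : Submodule F[X] (Module.AEval' φ) => finrank F (und W) := fun _ _ h =>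
  Submodule.finrank_lt_finrank_of_lt (lt_of_le_of_ne (und_le_iff.2 h.le) fun e => h.ne (und_inj e))

theorem card_fixedBy (μ : Fin n → ℕ) (hμ : ∑ i, μ i = n) (x : GL (Fin n) F) :
    Nat.card (MulAction.fixedBy (GL (Fin n) F ⧸ parabolicGL n F μ) x) =
      Nat.card (Fl (fun W : Submodule F[X]
        (Module.AEval' (Matrix.toLin' (x : Matrix (Fin n) (Fin n) F))) => finrank F (und W)) μ ⊥) := by
  have h1 : ∀ y : MulAction.fixedBy (GL (Fin n) F ⧸ parabolicGL n F μ) x, ∀ j,
      ∃ W : Submodule F[X] (Module.AEval' (Matrix.toLin' (x : Matrix (Fin n) (Fin n) F))),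
        und W = cosetFl μ hμ y.1 j := fun y j => exists_und (by
    have : x • y.1 = y.1 := y.2
    change act x _ ≤ _
    rw [← cosetFl_smul, this])
  choose W hW using h1
  refine Nat.card_congr (Equiv.ofBijective (fun y => ⟨W y, ?_, ?_, fun i => ?_⟩) ⟨?_, ?_⟩)
  · obtain ⟨y, hy⟩ := y
    obtain ⟨g, rfl⟩ := QuotientGroup.mk_surjective y
    refine und_inj ?_
    rw [hW, und_bot, cosetFl_mk, stdF_zero, act, Submodule.map_bot]
  · obtain ⟨y, hy⟩ := y
    obtain ⟨g, rfl⟩ := QuotientGroup.mk_surjective y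
    refine und_inj ?_
    rw [hW, und_top, cosetFl_mk, stdF_last μ hμ, act_eq_of_le le_top]
  · obtain ⟨y, hy⟩ := y
    obtain ⟨g, rfl⟩ := QuotientGroup.mk_surjective y
    beta_reduce
    rw [← und_le_iff, hW, hW, cosetFl_mk, cosetFl_mk, finrank_act, finrank_act]
    exact ⟨Submodule.map_mono (stdF_mono μ (Fin.castSucc_le_succ i)), finrank_stdF_succ μ hμ i⟩
  · intro y z h
    refine Subtype.ext (cosetFl_inj μ hμ (funext fun j => ?_))
    rw [← hW, ← hW]
    exact congrArg (fun c => und (c.1 j)) h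
  · intro c
    obtain ⟨y, hy⟩ := cosetFl_surj μ hμ (fun j => und (c.1 j)) (by rw [c.2.1, und_bot])
      fun i => ⟨und_le_iff.2 (c.2.2.2 i).1, (c.2.2.2 i).2⟩
    refine ⟨⟨y, cosetFl_inj μ hμ (funext fun j => ?_)⟩, Subtype.ext (funext fun j => und_inj ?_)⟩
    · rw [cosetFl_smul, hy]
      exact act_eq_of_le (map_und_le _)
    · change und (W _ j) = _
      rw [hW, hy]

theorem typ_aeval [Finite F] [DecidableEq F] {A : Matrix (Fin n) (Fin n) F} (h : H66.IsSS A) :
    Typ (Module.AEval' (Matrix.toLin' A)) (UniqueFactorizationMonoid.normalizedFactors A.charpoly) ∧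
      ((UniqueFactorizationMonoid.normalizedFactors A.charpoly).map natDegree).sum = n := by
  classical
  obtain ⟨k, π, hπ, hc, E, hE⟩ := h.exists_model
  have hs : UniqueFactorizationMonoid.normalizedFactors A.charpoly = univ.val.map π := by
    rw [hc, Finset.prod_eq_multiset_prod,
      UniqueFactorizationMonoid.normalizedFactors_prod_eq _ (by simpa using fun i => (hπ i).2),
      Multiset.map_map]
    exact Multiset.map_congr rfl fun i _ => (hπ i).1.normalize_eq_self
  have hn : ((univ.val.map π).map natDegree).sum = n := by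
    have := congrArg natDegree hc
    rw [Matrix.charpoly_natDegree_eq_dim, Fintype.card_fin,
      natDegree_prod_of_monic _ _ fun i _ => (hπ i).1] at this
    rw [Multiset.map_map, this]
    rfl
  rw [hs]
  refine ⟨⟨by simpa using hπ, ?_, fun f hf hf' => ?_⟩, hn⟩
  · rw [hn, ← Nat.card_congr (Module.AEval'.of (Matrix.toLin' A)).toEquiv, Nat.card_fun]
    simp
  · have e0 : {v : Module.AEval' (Matrix.toLin' A) // f • v = 0} ≃
        {w : ∀ i, AdjoinRoot (π i) // ∀ i, AdjoinRoot.mk (π i) f * w i = 0} :=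
      ((Module.AEval'.of (Matrix.toLin' A)).symm.trans E).toEquiv.subtypeEquiv fun v => by
          obtain ⟨v, rfl⟩ := (Module.AEval'.of (Matrix.toLin' A)).surjective v
          rw [← Module.AEval.of_aeval_smul, LinearEquiv.map_eq_zero_iff, ← E.map_eq_zero_iff,
            Module.End.smul_def, hE.aeval, funext_iff]
          refine forall_congr' fun i => ?_
          rw [Pi.mul_apply, H66.aeval_cycRoot]
          rfl
    have e : {v : Module.AEval' (Matrix.toLin' A) // f • v = 0} ≃
        ∀ i, {w : F[X] ⧸ Ideal.span {π i} // f • w = 0} :=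
      e0.trans (Equiv.subtypePiEquivPi (β := fun i => AdjoinRoot (π i))
        (p := fun i w => AdjoinRoot.mk (π i) f * w = 0))
    rw [tor, Nat.card_congr e, Nat.card_pi]
    have : ∀ i, Nat.card {w : F[X] ⧸ Ideal.span {π i} // f • w = 0} =
        if f = π i then Nat.card F ^ f.natDegree else 1 := fun i => by
      have := tor_quot (hπ i).1 (hπ i).2 hf hf'
      rw [tor] at this
      rw [this]
      split_ifs with e
      · rw [e]
      · rfl
    simp only [this]
    rw [Finset.prod_ite, Finset.prod_const_one, mul_one, Finset.prod_const, ← pow_mul,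
      Multiset.count_map, Finset.card_def, Finset.filter_val]
    convert rfl

theorem sign_cval [DecidableEq F[X]] (q : ℤ) (s : Multiset F[X])
    (hs : ∀ f ∈ s, Irreducible f) : (-1) ^ (s.map natDegree).sum * cval q s =
      ∏ f ∈ s.toFinset, (-1) ^ ((f.natDegree - 1) * s.count f) *
        q ^ (f.natDegree * s.count f * (s.count f - 1) / 2) := by
  have hc : cval q s =
      ∏ f ∈ s.toFinset, (-1) ^ s.count f * q ^ (f.natDegree * (s.count f).choose 2) := by
    unfold cval
    convert rfl
  have h4 : (-1 : ℤ) ^ (s.map natDegree).sum =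
      ∏ f ∈ s.toFinset, (-1) ^ (f.natDegree * s.count f) := by
    rw [Finset.prod_pow_eq_pow_sum, Finset.sum_multiset_map_count]
    simp [mul_comm]
  rw [h4, hc, ← Finset.prod_mul_distrib]
  refine Finset.prod_congr rfl fun f hf => ?_
  have hd : 0 < f.natDegree := (hs f (by simpa using hf)).natDegree_pos
  obtain ⟨e, he⟩ : ∃ e, f.natDegree = e + 1 := ⟨f.natDegree - 1, by omega⟩
  have h5 : f.natDegree * s.count f * (s.count f - 1) / 2 = f.natDegree * (s.count f).choose 2 := by
    rw [Nat.choose_two_right, mul_assoc, Nat.mul_div_assoc _ (Nat.even_mul_pred_self _).two_dvd]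
  have h6 : (-1 : ℤ) ^ s.count f * (-1) ^ s.count f = 1 := by rw [← mul_pow]; simp
  rw [h5, he, Nat.add_sub_cancel, add_mul, one_mul, pow_add]
  linear_combination ((-1 : ℤ) ^ (e * s.count f) * q ^ ((e + 1) * (s.count f).choose 2)) * h6

end Cfsg.Agent.H89St
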