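import Cfsg.Agent.H89.CharAux

/-! Characters of abelian groups all of whose non-identity values have absolute value `1` or
vanish. -/

set_option autoImplicit false
set_option linter.style.haveILetI false
set_option linter.unusedSectionVars false

namespace Cfsg.Agent.H89

open Cfsg Cfsg.Agent.H5
open scoped ComplexConjugate

variable {S : Type*} [Group S] [Fintype S]

theorem classInner_regular [DecidableEq S] {lam : S → ℂ} (h : IsCharacter S lam) :
    classInner (fun g : S => if g = 1 then (Nat.card S : ℂ) else 0) lam = lam 1 := by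
  rw [classInner, Finset.sum_eq_single 1 (fun b _ hb => by simp [hb]) (by simp), if_pos rfl,
    conj_degree h, ← mul_assoc, inv_mul_cancel₀ natCard_ne_zero, one_mul]

/-- A character vanishing off the identity has degree divisible by the group order. -/
theorem card_dvd_of_vanish {η : S → ℂ} (hη : IsCharacter S η) (h : ∀ x, x ≠ 1 → η x = 0) {m : ℕ}
    (hm : η 1 = m) : Nat.card S ∣ m := by
  obtain ⟨k, hk⟩ := exists_nat_classInner hη isCharacter_one
  rw [classInner_one_right, Finset.sum_eq_single 1 (fun b _ hb => h b hb) (by simp), hm,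
    inv_mul_eq_iff_eq_mul₀ natCard_ne_zero] at hk
  exact ⟨k, by exact_mod_cast hk⟩

/-- A character of a nontrivial abelian group with all non-identity values of absolute value one
is a multiple of the regular character plus or minus a linear character. -/
theorem exists_regular_add_sign (hS : ∀ a b : S, a * b = b * a) [Nontrivial S] {η : S → ℂ}
    (hη : IsCharacter S η) (h : ∀ x, x ≠ 1 → ‖η x‖ = 1) :
    ∃ (k : ℕ) (ε : ℤ) (μ : S →* ℂˣ), (ε = 1 ∨ ε = -1) ∧ η 1 = k * Nat.card S + ε ∧
      ∀ x, x ≠ 1 → η x = ε * μ x := by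
  classical
  set n := Nat.card S with hn
  have hn1 : 1 < n := Finite.one_lt_card
  have hn0 : (n : ℂ) ≠ 0 := natCard_ne_zero
  obtain ⟨d, hd⟩ := exists_nat_degree hη
  choose a ha using fun lam : IrrCharacter S =>
    exists_nat_classInner hη (isCharacter_of_isIrr lam.2)
  have h1 : ∀ lam : IrrCharacter S, (lam : S → ℂ) 1 = 1 := fun lam =>
    degree_eq_one_of_comm hS lam.2
  let ψ : ℤ → S → ℂ := fun k => η - (k : ℂ) • fun g : S => if g = 1 then (n : ℂ) else 0
  have hψ1 : ∀ k, ψ k 1 = ((d - k * n : ℤ) : ℂ) := fun k => by simp [ψ, hd]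
  have hψx : ∀ k x, x ≠ 1 → ψ k x = η x := fun k x hx => by simp [ψ, hx]
  have hψc : ∀ k, IsClassFunction S (ψ k) := fun k g y => by rw [hS y, mul_inv_cancel_right]
  have hψi : ∀ k (lam : IrrCharacter S), classInner (ψ k) lam = ((a lam - k : ℤ) : ℂ) :=
    fun k lam => by
      rw [classInner_sub_left, classInner_smul_left, ha,
        classInner_regular (isCharacter_of_isIrr lam.2), h1]
      simp
  have hψn : ∀ k, (n : ℂ) * classInner (ψ k) (ψ k) = (((d - k * n) ^ 2 + (n - 1) : ℤ) : ℂ) :=
    fun k => by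
      rw [classInner, ← mul_assoc, mul_inv_cancel₀ hn0, one_mul,
        ← Finset.add_sum_erase _ _ (Finset.mem_univ 1), hψ1, Finset.sum_congr rfl
          (g := fun _ => 1) (fun x hx => by
            rw [hψx k x (Finset.ne_of_mem_erase hx), Complex.mul_conj',
              h x (Finset.ne_of_mem_erase hx)]; simp),
        Finset.sum_const, Finset.card_erase_of_mem (Finset.mem_univ _), Finset.card_univ,
        ← Nat.card_eq_fintype_card, ← hn, nsmul_eq_mul, Nat.cast_sub hn1.le]
      simp [sq]
  have hexp : ∀ k, ψ k = ∑ lam : IrrCharacter S, ((a lam - k : ℤ) : ℂ) • (lam : S → ℂ) :=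
    fun k => by
      conv_lhs => rw [classFunction_eq_sum (hψc k)]
      simp only [hψi]
  have hsum : ∀ k : ℤ, ∑ lam : IrrCharacter S, (a lam - k : ℤ) = d - k * n := fun k => by
    have := congrFun (hexp k) 1
    rw [hψ1, Finset.sum_apply] at this
    simp only [Pi.smul_apply, h1, smul_eq_mul, mul_one] at this
    exact_mod_cast this.symm
  have hsq : ∀ k : ℤ, n * ∑ lam : IrrCharacter S, (a lam - k : ℤ) ^ 2 =
      (d - k * n) ^ 2 + (n - 1) := fun k => by
    have := hψn k
    rw [hexp k, classInner_sum_smul_sum_smul] at this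
    simp only [map_intCast, ← sq] at this
    exact_mod_cast this
  obtain ⟨k, hk, hε⟩ : ∃ k : ℤ, 0 ≤ k ∧ ((d : ℤ) - k * n = 1 ∨ (d : ℤ) - k * n = -1) := by
    have hn' : (1 : ℤ) < n := by exact_mod_cast hn1
    have h2 := hsq (d / n)
    have h3 : ∑ lam : IrrCharacter S, (a lam - d / n : ℤ) ≤
        ∑ lam : IrrCharacter S, (a lam - d / n : ℤ) ^ 2 :=
      Finset.sum_le_sum fun _ _ => Int.le_self_sq _
    rw [hsum] at h3
    have h4 : (d : ℤ) - d / n * n = d % n := by rw [Int.emod_def]; ring
    have h5 := Int.emod_nonneg (d : ℤ) (by omega : (n : ℤ) ≠ 0)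
    have h6 := Int.emod_lt_of_pos (d : ℤ) (by omega : (0 : ℤ) < n)
    have h7 : (0 : ℤ) ≤ d / n := Int.ediv_nonneg (by positivity) (by positivity)
    rw [h4] at h2 h3
    set t := (d : ℤ) % n
    set T := ∑ lam : IrrCharacter S, (a lam - d / n : ℤ) ^ 2
    by_cases ht : t = 1
    · exact ⟨d / n, h7, Or.inl (h4.trans ht)⟩
    refine ⟨d / n + 1, by omega, Or.inr ?_⟩
    have h8 : t ≠ 0 := by
      rintro h0
      rw [h0] at h2
      have : T ≤ 0 := by nlinarith
      nlinarith
    have h9 : n - 1 ≤ t := by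
      by_contra hcon
      have : 2 ≤ t := by omega
      nlinarith
    have : t = n - 1 := by omega
    linarith
  have hnorm : classInner (ψ k) (ψ k) = 1 := by
    apply mul_left_cancel₀ hn0
    rw [hψn]
    rcases hε with e | e <;> rw [e] <;> simp
  obtain ⟨β, ε, hε', hβ⟩ := exists_sign_irr (hψc k) (fun lam => ⟨_, hψi k lam⟩) hnorm
  obtain ⟨μ, hμ⟩ := exists_monoidHom_of_comm hS β.2
  obtain ⟨k, rfl⟩ := Int.eq_ofNat_of_zero_le hk
  refine ⟨k, ε, μ, hε', ?_, fun x hx => by rw [← hψx k x hx, hβ, hμ]⟩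
  have := hβ 1
  rw [hψ1, h1, mul_one] at this
  rw [hd, ← this]
  push_cast; ring

end Cfsg.Agent.H89
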